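import Cfsg.Agent.Lib.CharClifford.Basic
import Cfsg.Agent.Lib.Char.Induced
import Cfsg.Agent.Lib.Char.Clifford
import Cfsg.Agent.Lib.Hall.Primitive
import Mathlib.Tactic

/-!
Two tools for characters induced from maximal subgroups: irreducibility from an irreducible
restriction and restriction of an induced character to a supplementing normal subgroup; and the two
lowest chief layers above the core of a maximal subgroup with solvable quotient.
-/

set_option autoImplicit false

open scoped ComplexConjugate Pointwise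

namespace Cfsg.Agent.Lib.CharClifford

open Cfsg Cfsg.Agent.Lib.Char Subgroup

universe u

/-- A character with an irreducible pullback is irreducible. -/
theorem irr_of_comp {X : Type u} [Group X] [Finite X] {Y : Type u} [Group Y] [Finite Y] (f : Y →* X)
    {χ : X → ℂ} (hχ : IsCharacter X χ) (h : IsIrrCharacter Y (fun y => χ (f y))) :
    IsIrrCharacter X χ := by
  obtain ⟨n, ρ, rfl⟩ := hχ
  haveI : Representation.IsIrreducible (ρ.comp f : Representation ℂ Y (Fin n → ℂ)) :=
    isIrreducible_of_isIrrCharacter (ρ.comp f) h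
  exact ⟨n, ρ, isIrreducible_of_comp ρ f, rfl⟩

variable {G : Type u} [Group G] [Fintype G]

/-- An induced class function restricted to a supplementing normal subgroup is induced. -/
theorem indFun_restrict_of_sup (H K : Subgroup G) [K.Normal] [Fintype K] (hG : K ⊔ H = ⊤)
    {θ : H → ℂ} (hθ : IsClassFunction H θ) (y : K) :
    indFun H θ y = indFun (H.subgroupOf K) (fun x => θ ⟨(x : K), x.2⟩) y := by
  classical
  set F : G → ℂ := fun g => extendByZero H θ (g⁻¹ * y * g) with hF
  have hinv : ∀ (g : G) (h : H), F (g * h) = F g := by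
    intro g h
    have e : (g * (h : G))⁻¹ * y * (g * h) = (h : G)⁻¹ * (g⁻¹ * y * g) * h := by group
    simp only [hF, e]
    have h2 := extendByZero_conj hθ (H.inv_mem h.2) (g⁻¹ * (y : G) * g)
    rwa [inv_inv] at h2
  have hsurj : ∀ g : G, ∃ p : K × H, (p.1 : G) * p.2 = g := fun g => by
    have hg : g ∈ ((K : Set G) * (H : Set G)) := by rw [← normal_mul, hG]; trivial
    obtain ⟨k, hk, h, hh, rfl⟩ := Set.mem_mul.mp hg
    exact ⟨(⟨k, hk⟩, ⟨h, hh⟩), rfl⟩
  have key : (Nat.card (H.subgroupOf K) : ℂ) * ∑ g : G, F g =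
      (Nat.card H : ℂ) * ∑ k : K, F k := by
    have h1 : ∑ p : K × H, F ((p.1 : G) * p.2) = (Nat.card H : ℂ) * ∑ k : K, F k := by
      rw [Fintype.sum_prod_type, Finset.mul_sum]
      exact Finset.sum_congr rfl fun k _ => by
        rw [Finset.sum_congr rfl (g := fun _ => F k) (fun h _ => hinv k h), Finset.sum_const,
          Finset.card_univ, Nat.card_eq_fintype_card, nsmul_eq_mul]
    rw [← h1, ← Finset.sum_fiberwise Finset.univ (fun p : K × H => (p.1 : G) * p.2)
      (fun p => F ((p.1 : G) * p.2)), Finset.mul_sum]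
    refine Finset.sum_congr rfl fun g _ => ?_
    rw [Finset.sum_congr rfl (g := fun _ => F g) (fun p hp => by rw [(Finset.mem_filter.mp hp).2]),
      Finset.sum_const, nsmul_eq_mul]
    congr 1
    norm_cast
    rw [← Fintype.card_subtype, ← Nat.card_eq_fintype_card]
    obtain ⟨⟨k₀, h₀⟩, hp₀⟩ := hsurj g
    refine Nat.card_congr
      { toFun := fun x => ⟨(k₀ * (x : K), ⟨(x : G)⁻¹ * h₀, H.mul_mem (H.inv_mem x.2) h₀.2⟩),
          by rw [← hp₀]; show (k₀ : G) * (x : K) * ((x : G)⁻¹ * h₀) = k₀ * h₀; group⟩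
        invFun := fun p => ⟨k₀⁻¹ * p.1.1, by
          show (k₀ : G)⁻¹ * (p.1.1 : G) ∈ H
          have e : (k₀ : G)⁻¹ * (p.1.1 : G) = (h₀ : G) * (p.1.2 : G)⁻¹ := by
            have := p.2.trans hp₀.symm
            rw [inv_mul_eq_iff_eq_mul, ← mul_assoc, eq_mul_inv_iff_mul_eq]
            exact this
          rw [e]; exact H.mul_mem h₀.2 (H.inv_mem p.1.2.2)⟩
        left_inv := fun x => by ext; simp
        right_inv := fun p => by
          have := p.2.trans hp₀.symm
          have e2 : ((p.1.1 : G))⁻¹ * (k₀ * (h₀ : G)) = p.1.2 := by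
            rw [← this]; group
          refine Subtype.ext (Prod.ext (by simp) (Subtype.ext ?_))
          simpa [mul_assoc] using e2 }
  have hr : indFun (H.subgroupOf K) (fun x => θ ⟨(x : K), x.2⟩) y =
      (Nat.card (H.subgroupOf K) : ℂ)⁻¹ * ∑ k : K, F k := by
    rw [indFun]
    congr 1
    refine Finset.sum_congr rfl fun k _ => ?_
    simp only [hF]
    by_cases hm : ((k : G))⁻¹ * (y : G) * k ∈ H
    · rw [extendByZero_mem _ _ hm, extendByZero_mem _ _ (show k⁻¹ * y * k ∈ H.subgroupOf K from hm)]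
      rfl
    · rw [extendByZero_not_mem _ _ hm,
        extendByZero_not_mem _ _ (show k⁻¹ * y * k ∉ H.subgroupOf K from hm)]
  rw [hr, indFun]
  have hH : (Nat.card H : ℂ) ≠ 0 := card_ne_zero_complex H
  have hHK : (Nat.card (H.subgroupOf K) : ℂ) ≠ 0 := card_ne_zero_complex (H.subgroupOf K)
  field_simp
  linear_combination key

omit [Fintype G] in
/-- The two lowest chief layers above the core of a maximal, non-normal subgroup with solvable
quotient. -/
theorem exists_core_layers_comm [Finite G] (H : Subgroup G) (hmax : IsCoatom H)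
    [hsolv : Group.IsSolvable (G ⧸ H.normalCore)] (hne : H.normalCore ≠ H) :
    ∃ M K : Subgroup G, M.Normal ∧ K.Normal ∧ H.normalCore ≤ M ∧ M ≤ K ∧ M ⊔ H = ⊤ ∧
      M ⊓ H = H.normalCore ∧ (K ⊓ H) ≠ H.normalCore ∧ (H.relIndex M).Coprime (M.relIndex K) ∧
      (∀ h ∈ K ⊓ H, (∀ x ∈ M, x * h * x⁻¹ * h⁻¹ ∈ H.normalCore) → h ∈ H.normalCore) ∧
      ∀ h ∈ K ⊓ H, ∀ k ∈ K ⊓ H, h⁻¹ * k⁻¹ * h * k ∈ H.normalCore := by
  set C := H.normalCore with hC
  let π := QuotientGroup.mk' C
  have hπ : Function.Surjective π := QuotientGroup.mk'_surjective C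
  have hker : π.ker = C := QuotientGroup.ker_mk' C
  have hCH : C ≤ H := H.normalCore_le
  set U := H.map π with hU
  have hUH : U.comap π = H := Subgroup.comap_map_eq_self (by rw [hker]; exact hCH)
  have hUmax : IsCoatom U := by
    refine ⟨fun h => hmax.1 (by rw [← hUH, h, Subgroup.comap_top]), fun V hV => ?_⟩
    have hlt : H < V.comap π := by
      have h := (Subgroup.comap_lt_comap_of_surjective hπ).mpr hV
      rwa [hUH] at h
    exact (Subgroup.comap_injective hπ) ((hmax.2 _ hlt).trans (Subgroup.comap_top π).symm)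
  have hUcore : U.normalCore = ⊥ := by
    refine Subgroup.comap_injective hπ (le_antisymm ?_ ?_)
    · rw [MonoidHom.comap_bot, hker]
      refine (Subgroup.normal_le_normalCore (N := (U.normalCore).comap π)).mpr ?_
      exact (Subgroup.comap_mono U.normalCore_le).trans hUH.le
    · exact Subgroup.comap_mono bot_le
  have hUbot : U ≠ ⊥ := fun h => hne (by rw [← hUH, h, MonoidHom.comap_bot, hker])
  have : Nontrivial (G ⧸ C) := by
    obtain ⟨u, hu⟩ := Subgroup.ne_bot_iff_exists_ne_one.mp hUbot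
    exact ⟨⟨u, 1, fun h => hu (Subtype.ext h)⟩⟩
  obtain ⟨N, p, hNn, hN, hp, hNp, hNc, hNmin⟩ := Hall.exists_normal_pgroup (G := G ⧸ C)
  have hNU := Hall.sup_eq_top_of_core_eq_bot hUmax hUcore (N := N) hN
  have hCN : centralizer (N : Set (G ⧸ C)) = N := Hall.centralizer_eq_self hUmax hUcore hN
  have hNinf : N ⊓ U = ⊥ := Hall.inf_eq_bot_of_le_centralizer hUmax hUcore hN hCN.ge
  -- a minimal normal subgroup of the complement
  have : Nontrivial U := U.nontrivial_iff_ne_bot.mpr hUbot
  obtain ⟨Q0, q, hQn, hQ0, hq, hQp, hQc, -⟩ := Hall.exists_normal_pgroup (G := U)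
  set Q := Q0.map U.subtype with hQ
  have hQU : Q ≤ U := Subgroup.map_subtype_le Q0
  have hQ1 : Q ≠ ⊥ := fun h => hQ0 (by
    rwa [hQ, Subgroup.map_eq_bot_iff_of_injective _ U.subtype_injective] at h)
  have hUQ : U ≤ normalizer (Q : Set (G ⧸ C)) := by
    intro u hu
    rw [mem_normalizer_iff]
    intro x
    constructor
    · rintro ⟨a, ha, rfl⟩
      exact ⟨⟨u, hu⟩ * a * ⟨u, hu⟩⁻¹, hQn.conj_mem a ha _, rfl⟩
    · rintro ⟨a, ha, e⟩
      refine ⟨⟨u, hu⟩⁻¹ * a * ⟨u, hu⟩, by simpa using hQn.conj_mem a ha (⟨u, hu⟩⁻¹), ?_⟩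
      show u⁻¹ * (a : G ⧸ C) * u = x
      rw [show (a : G ⧸ C) = u * x * u⁻¹ from e]
      group
  set T := N ⊔ Q with hT
  have hTn : T.Normal := by
    refine normalizer_eq_top_iff.mp (eq_top_iff.mpr (hNU.ge.trans (sup_le ?_ ?_)))
    · exact le_trans le_sup_left le_normalizer
    · intro u hu
      have hx : ∀ v ∈ U, ∀ x ∈ T, v * x * v⁻¹ ∈ T := by
        intro v hv x hx
        have h1 : T.map (MulAut.conj v).toMonoidHom ≤ T := by
          rw [hT, Subgroup.map_sup]
          refine sup_le ?_ ?_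
          · rintro _ ⟨n, hn, rfl⟩
            exact Subgroup.mem_sup_left (hNn.conj_mem n hn v)
          · rintro _ ⟨n, hn, rfl⟩
            exact Subgroup.mem_sup_right ((mem_normalizer_iff.mp (hUQ hv) n).mp hn)
        exact h1 ⟨x, hx, rfl⟩
      rw [mem_normalizer_iff]
      intro x
      refine ⟨hx u hu x, fun h => ?_⟩
      have h2 := hx u⁻¹ (U.inv_mem hu) _ h
      simpa [mul_assoc] using h2
  have hNQ : N ⊓ Q = ⊥ := le_bot_iff.mp ((inf_le_inf_left N hQU).trans hNinf.le)
  have hcardT : Nat.card T = Nat.card N * Nat.card Q := by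
    have h1 : N.relIndex (Q ⊔ N) = N.relIndex Q := Subgroup.relIndex_sup_right Q N
    have h2 : N.relIndex Q = Nat.card Q := by
      rw [← Subgroup.inf_relIndex_right, inf_comm, inf_comm, hNQ, Subgroup.relIndex_bot_left]
    rw [h2] at h1
    rw [← h1, sup_comm, ← hT, ← Nat.card_congr (Subgroup.subgroupOfEquivOfLe
      (le_sup_left : N ≤ T)).toEquiv, Subgroup.relIndex, Subgroup.card_mul_index]
  have : Fact p.Prime := ⟨hp⟩
  have : Fact q.Prime := ⟨hq⟩
  obtain ⟨a, ha⟩ := IsPGroup.iff_card.mp hNp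
  obtain ⟨b, hb⟩ := IsPGroup.iff_card.mp (hQp.map U.subtype : IsPGroup q Q)
  have hpq : p ≠ q := by
    intro h
    subst h
    have hTp : IsPGroup p T := IsPGroup.of_card (n := a + b) (by rw [hcardT, ha, hb, pow_add])
    have hTnil : Group.IsNilpotent T := hTp.isNilpotent
    have : (N.subgroupOf T).Normal := ⟨fun x hx y => hNn.conj_mem _ hx _⟩
    have hne' : N.subgroupOf T ≠ ⊥ := by
      rw [Ne, Subgroup.subgroupOf_eq_bot, disjoint_iff, inf_eq_left.mpr le_sup_left]
      exact hN
    have : Nontrivial T := by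
      obtain ⟨x, hx⟩ := Subgroup.ne_bot_iff_exists_ne_one.mp hne'
      exact ⟨⟨(x : T), 1, fun h => hx (Subtype.ext h)⟩⟩
    -- the centraliser of `T` in `N` is normal, so it is all of `N`
    set Z := N ⊓ centralizer (T : Set (G ⧸ C)) with hZ
    have hTle : T ≤ normalizer (N : Set (G ⧸ C)) := le_normalizer_of_normal
    have hZ1 : Z ≠ ⊥ := by
      have : Fact p.Prime := ⟨hp⟩
      have hmod : ∃ z ∈ N, z ≠ 1 ∧ ∀ t ∈ T, t * z = z * t := by
        letI : MulAction (ConjAct T) (N.subgroupOf T) := inferInstance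
        have hTc : IsPGroup p (ConjAct T) := hTp.of_equiv ConjAct.toConjAct
        have hdvd : p ∣ Nat.card (N.subgroupOf T) := by
          rw [Nat.card_congr (Subgroup.subgroupOfEquivOfLe (le_sup_left : N ≤ T)).toEquiv, ha]
          refine dvd_pow_self p fun h0 => hN ?_
          exact Subgroup.card_eq_one.mp (by rw [ha, h0, pow_zero])
        obtain ⟨z, hz, hz1⟩ := hTc.exists_fixed_point_of_prime_dvd_card_of_fixed_point
          (N.subgroupOf T) hdvd (a := 1) (fun t => smul_one t)
        refine ⟨(z : T), z.2, fun h => hz1 (Subtype.ext (Subtype.ext h.symm)), fun t ht => ?_⟩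
        have h1 : ((ConjAct.toConjAct (⟨t, ht⟩ : T) • z : N.subgroupOf T) : T) = z :=
          congrArg Subtype.val (hz (ConjAct.toConjAct ⟨t, ht⟩))
        rw [ConjAct.Subgroup.val_conj_smul, ConjAct.toConjAct_smul] at h1
        have h2 : t * ((z : T) : G ⧸ C) * t⁻¹ = ((z : T) : G ⧸ C) := congrArg Subtype.val h1
        exact mul_inv_eq_iff_eq_mul.mp h2
      obtain ⟨z, hzN, hz1, hzc⟩ := hmod
      intro h
      exact hz1 (Subgroup.mem_bot.mp (h ▸ (⟨hzN, mem_centralizer_iff.mpr hzc⟩ : z ∈ Z)))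
    have hZn : Z.Normal := inferInstance
    have hall : Z = N := (hNmin Z hZn inf_le_left).resolve_left hZ1
    refine hQ1 (le_bot_iff.mp (le_trans (le_inf ?_ le_rfl) hNQ.le))
    intro x hx
    rw [← hCN, mem_centralizer_iff]
    intro n hn
    exact (mem_centralizer_iff.mp ((hall ▸ hn : n ∈ Z)).2 x (Subgroup.mem_sup_right hx)).symm
  refine ⟨N.comap π, T.comap π, hNn.comap π, hTn.comap π, ?_, Subgroup.comap_mono le_sup_left,
    ?_, ?_, ?_, ?_, ?_, ?_⟩
  · intro x hx
    have h1 : π x = 1 := by rw [← MonoidHom.mem_ker, hker]; exact hx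
    show π x ∈ N
    rw [h1]; exact N.one_mem
  · exact (congrArg (fun X => N.comap π ⊔ X) hUH.symm).trans
      ((Subgroup.comap_sup_eq π N U hπ).trans (by rw [hNU, Subgroup.comap_top]))
  · exact (congrArg (fun X => N.comap π ⊓ X) hUH.symm).trans
      ((Subgroup.comap_inf N U π).symm.trans (by rw [hNinf, MonoidHom.comap_bot, hker]))
  · intro h
    have h' : (T ⊓ U).comap π = (⊥ : Subgroup (G ⧸ C)).comap π := by
      rw [Subgroup.comap_inf, MonoidHom.comap_bot, hker]
      exact (congrArg (fun X => T.comap π ⊓ X) hUH).trans h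
    exact hQ1 (le_bot_iff.mp ((le_inf le_sup_right hQU).trans (Subgroup.comap_injective hπ h').le))
  · have h1 : H.relIndex (N.comap π) = Nat.card N := by
      refine (congrArg (fun X => X.relIndex (N.comap π)) hUH.symm).trans ?_
      rw [Subgroup.relIndex_comap, Subgroup.map_comap_eq_self_of_surjective hπ, ← Subgroup.inf_relIndex_right,
        inf_comm, hNinf, Subgroup.relIndex_bot_left]
    have h2 : (N.comap π).relIndex (T.comap π) = Nat.card Q := by
      rw [Subgroup.relIndex_comap, Subgroup.map_comap_eq_self_of_surjective hπ]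
      refine Nat.eq_of_mul_eq_mul_left (Nat.card_pos (α := N)) ?_
      rw [← hcardT, Subgroup.relIndex, ← Nat.card_congr (Subgroup.subgroupOfEquivOfLe
        (le_sup_left : N ≤ T)).toEquiv, Subgroup.card_mul_index]
    rw [h1, h2, ha, hb]
    exact ((Nat.coprime_primes hp hq).mpr hpq).pow _ _
  · intro h hh' hcomm
    have hh := hh'.2
    have hc : π h ∈ centralizer (N : Set (G ⧸ C)) := by
      rw [mem_centralizer_iff]
      intro n hn
      obtain ⟨x, rfl⟩ := hπ n
      have h3 : π (x * h * x⁻¹ * h⁻¹) = 1 := by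
        rw [← MonoidHom.mem_ker, hker]; exact hcomm x hn
      simp only [map_mul, map_inv] at h3
      rwa [mul_inv_eq_one, mul_inv_eq_iff_eq_mul] at h3
    rw [hCN] at hc
    have h2 : π h ∈ N ⊓ U := ⟨hc, Subgroup.mem_map_of_mem π hh⟩
    rw [hNinf, Subgroup.mem_bot, ← MonoidHom.mem_ker, hker] at h2
    exact h2
  · intro h hh k hk
    have hQmem : ∀ g ∈ T.comap π ⊓ H, π g ∈ Q := by
      intro g hg
      have hgT : π g ∈ N ⊔ Q := hg.1
      obtain ⟨n, hn, y, hy, hny⟩ := Subgroup.mem_sup_of_normal_left.mp hgT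
      have h1 : n ∈ N ⊓ U := by
        refine ⟨hn, ?_⟩
        rw [show n = π g * y⁻¹ by rw [← hny, mul_inv_cancel_right]]
        exact U.mul_mem (Subgroup.mem_map_of_mem π hg.2) (U.inv_mem (hQU hy))
      rw [hNinf, Subgroup.mem_bot] at h1
      rw [← hny, h1, one_mul]
      exact hy
    obtain ⟨x, hx, hxh⟩ := hQmem h hh
    obtain ⟨z, hz, hzk⟩ := hQmem k hk
    have h1 : π h * π k = π k * π h := by
      rw [← hxh, ← hzk, ← map_mul, ← map_mul]
      exact congrArg U.subtype (congrArg (fun w : Q0 => (w : U)) (hQc.is_comm.comm ⟨x, hx⟩ ⟨z, hz⟩))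
    rw [← hker, MonoidHom.mem_ker, map_mul, map_mul, map_mul, map_inv, map_inv, mul_assoc, h1,
      ← mul_assoc, inv_mul_cancel_right, inv_mul_cancel]

omit [Fintype G] in
/-- The two lowest chief layers above the core of a maximal, non-normal subgroup with solvable
quotient, without the commutativity of the upper one. -/
theorem exists_core_layers [Finite G] (H : Subgroup G) (hmax : IsCoatom H)
    [hsolv : Group.IsSolvable (G ⧸ H.normalCore)] (hne : H.normalCore ≠ H) :
    ∃ M K : Subgroup G, M.Normal ∧ K.Normal ∧ H.normalCore ≤ M ∧ M ≤ K ∧ M ⊔ H = ⊤ ∧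
      M ⊓ H = H.normalCore ∧ (K ⊓ H) ≠ H.normalCore ∧ (H.relIndex M).Coprime (M.relIndex K) ∧
      ∀ h ∈ K ⊓ H, (∀ x ∈ M, x * h * x⁻¹ * h⁻¹ ∈ H.normalCore) → h ∈ H.normalCore := by
  obtain ⟨M, K, h1, h2, h3, h4, h5, h6, h7, h8, h9, -⟩ := exists_core_layers_comm H hmax hne
  exact ⟨M, K, h1, h2, h3, h4, h5, h6, h7, h8, h9⟩

end Cfsg.Agent.Lib.CharClifford
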