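import Cfsg.Agent.Lib.CharClifford.BlockSystem
import Cfsg.Agent.Lib.CharClifford.CoreMaximal
import Cfsg.Agent.Lib.Char.Degree
import Cfsg.Agent.Lib.Char.Clifford
import Cfsg.Agent.Lib.CharAux
import Mathlib.Tactic

/-!
Berger's theorem: the fully ramified chief layer above the core of an inducing subgroup carries a
commuting family of operators, hence a larger core.
-/

set_option autoImplicit false
set_option maxHeartbeats 2000000

open scoped Kronecker ComplexConjugate Pointwise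

namespace Cfsg.Agent.Lib.CharClifford

open Cfsg Cfsg.Agent.Lib.Char Matrix

universe u

variable {G : Type u} [Group G]

/-- A matrix representation with a given character. -/
theorem exists_matRep {χ : G → ℂ} (h : IsCharacter G χ) :
    ∃ σ : G →* Matrix (Fin (charDegree χ)) (Fin (charDegree χ)) ℂ, ∀ g, (σ g).trace = χ g := by
  obtain ⟨k, ρ, rfl⟩ := h
  have hk : charDegree ρ.character = k := charDegree_eq_of_apply_one (by
    rw [Representation.char_one, Module.finrank_fintype_fun_eq_card, Fintype.card_fin])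
  rw [hk]
  exact ⟨LinearMap.toMatrixAlgEquiv'.toAlgHom.toMonoidHom.comp ρ, fun g =>
    (LinearMap.trace_eq_matrix_trace ℂ (Pi.basisFun ℂ (Fin k)) (ρ g)).symm.trans rfl⟩

/-- The block diagonal sum of copies of a matrix representation. -/
noncomputable def kronHom (a : Type) [Fintype a] [DecidableEq a] {n : Type} [Fintype n]
    [DecidableEq n] (σ : G →* Matrix n n ℂ) : G →* Matrix (a × n) (a × n) ℂ where
  toFun g := (1 : Matrix a a ℂ) ⊗ₖ σ g
  map_one' := by rw [map_one, Matrix.one_kronecker_one]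
  map_mul' g g' := by rw [map_mul, ← Matrix.mul_kronecker_mul, mul_one]

theorem kronHom_apply (a : Type) [Fintype a] [DecidableEq a] {n : Type} [Fintype n]
    [DecidableEq n] (σ : G →* Matrix n n ℂ) (g : G) :
    kronHom a σ g = (1 : Matrix a a ℂ) ⊗ₖ σ g := rfl

variable [Fintype G]

/-- One step in the proof of Berger's theorem. -/
theorem berger_step {χ : G → ℂ} (hχ : IsIrrCharacter G χ) (H : Subgroup G) {ψ : H → ℂ}
    (hψ : IsIrrCharacter H ψ) (hind : indFun H ψ = χ) (C M K : Subgroup G) [C.Normal] [M.Normal]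
    [K.Normal] (hCM : C ≤ M) (hMK : M ≤ K) (hsup : M ⊔ H = ⊤) (hinf : M ⊓ H = C)
    (hne : K ⊓ H ≠ C) (hcop : (H.relIndex M).Coprime (M.relIndex K))
    (hfaith : ∀ h ∈ K ⊓ H, (∀ x ∈ M, x * h * x⁻¹ * h⁻¹ ∈ C) → h ∈ C)
    (habel : ∀ h ∈ K ⊓ H, ∀ k ∈ K ⊓ H, h⁻¹ * k⁻¹ * h * k ∈ C)
    {θ : M → ℂ} {e : ℕ} (hθ : IsIrrCharacter M θ) (hθe : (fun x : M => χ x) = (e : ℂ) • θ)
    {φ : C → ℂ} {f : ℕ} (hφ : IsIrrCharacter C φ) (hφf : (fun x : C => χ x) = (f : ℂ) • φ) :
    ∃ (S : Subgroup G) (η : S → ℂ), K ≤ S ∧ S ≠ ⊤ ∧ IsCharacter S η ∧ indFun S η = χ := by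
  classical
  have := Fintype.ofFinite H
  have := Fintype.ofFinite C
  have := Fintype.ofFinite M
  have hCH : C ≤ H := hinf ▸ inf_le_right
  have hψc := isCharacter_of_isIrr hψ
  have hχc := isCharacter_of_isIrr hχ
  have hχcf := isClassFunction_of_isIrr hχ
  have hχ1 : χ 1 ≠ 0 := irr_degree_ne_zero hχ
  have hθval : ∀ x : M, χ x = (e : ℂ) * θ x := fun x => congrFun hθe x
  have hφval : ∀ x : C, χ x = (f : ℂ) * φ x := fun x => congrFun hφf x
  have he0 : (e : ℂ) ≠ 0 := fun h => hχ1 (by have := hθval 1; rwa [h, zero_mul] at this)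
  have hf0 : (f : ℂ) ≠ 0 := fun h => hχ1 (by have := hφval 1; rwa [h, zero_mul] at this)
  set d := charDegree φ with hddef
  have hd0 : 0 < d := charDegree_pos hφ
  have hφ1 : φ 1 = (d : ℂ) := apply_one_eq_charDegree (isCharacter_of_isIrr hφ)
  -- the inducing character is homogeneous on `C`
  let iCH : C →* H := Subgroup.inclusion hCH
  let iCM : C →* M := Subgroup.inclusion hCM
  have hrc : IsCharacter C (fun c => ψ (iCH c)) := isCharacter_comp hψc iCH
  obtain ⟨w, hw⟩ := isCharacter_eq_sum hrc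
  have hw0 : ∀ η : IrrCharacter C, η ≠ ⟨φ, hφ⟩ → w η = 0 := by
    intro η hη
    choose b hb using fun x : G => classInner_natCast
      (isCharacter_conjChar C x hrc) (isCharacter_of_isIrr η.2)
    have hres : (fun c : C => χ c) = (Nat.card H : ℂ)⁻¹ • ∑ x : G, conjChar C x⁻¹ (fun c => ψ (iCH c)) := by
      funext c
      rw [← hind, Pi.smul_apply, Finset.sum_apply, smul_eq_mul, indFun]
      congr 1
      refine Finset.sum_congr rfl fun x _ => ?_
      have hm : x⁻¹ * (c : G) * x ∈ C := by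
        simpa using (inferInstance : C.Normal).conj_mem (c : G) c.2 x⁻¹
      rw [extendByZero_mem H ψ (hCH hm), conjChar_apply]
      exact congrArg ψ (Subtype.ext (by simp [iCH]))
    have h1 := congrArg (fun F : C → ℂ => classInner F (η : C → ℂ)) hres
    simp only [hφf, classInner_smul_left, classInner_sum_left, hb] at h1
    rw [classInner_irr_ne hφ η.2 (fun h => hη (Subtype.ext h.symm)), mul_zero, eq_comm, mul_eq_zero,
      or_iff_right (inv_ne_zero (card_ne_zero_complex H)), ← Nat.cast_sum, Nat.cast_eq_zero] at h1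
    have hb1 : b 1⁻¹ = w η := by
      have h2 := hb 1⁻¹
      rw [inv_one, conjChar_one, hw, classInner_sum_left, Finset.sum_eq_single η
        (fun y _ hy => by rw [classInner_smul_left, classInner_irrCharacter, if_neg hy, mul_zero])
        (fun h => absurd (Finset.mem_univ η) h), classInner_smul_left, classInner_irr_self η.2,
        mul_one, Nat.cast_inj] at h2
      rw [inv_one]; exact h2.symm
    rw [← hb1]
    exact Finset.sum_eq_zero_iff.mp h1 1 (Finset.mem_univ _)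
  set a := w ⟨φ, hφ⟩ with hadef
  have hψC : ∀ c : C, ψ (iCH c) = (a : ℂ) * φ c := fun c => by
    have := congrFun hw c
    rw [this, Finset.sum_apply, Finset.sum_eq_single (⟨φ, hφ⟩ : IrrCharacter C)
      (fun y _ hy => by rw [hw0 y hy]; simp) (fun h => absurd (Finset.mem_univ _) h)]
    rfl
  have hψ1 : ψ 1 = (a : ℂ) * d := by
    rw [← hφ1, ← hψC 1, map_one]
  have ha0 : a ≠ 0 := fun h => irr_degree_ne_zero hψ (by rw [hψ1, h, Nat.cast_zero, zero_mul])
  -- `θ` is fully ramified over `φ`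
  obtain ⟨m, hm⟩ := classInner_natCast (isCharacter_comp (isCharacter_of_isIrr hθ) iCM)
    (isCharacter_of_isIrr hφ)
  have hθC : ∀ c : C, θ (iCM c) = (m : ℂ) * φ c := by
    have h1 : θ ∘ iCM = ((f : ℂ) / e) • φ := funext fun c => by
      rw [Function.comp_apply, Pi.smul_apply, smul_eq_mul, div_mul_eq_mul_div, eq_div_iff he0,
        mul_comm, ← hθval, ← hφval]
      rfl
    have h2 : ((f : ℂ) / e) = m := by
      have h3 := hm
      rw [h1, classInner_smul_left, classInner_irr_self hφ, mul_one] at h3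
      exact h3
    intro c
    rw [← h2]
    exact congrFun h1 c
  have hθ1 : θ 1 = (m : ℂ) * d := by
    rw [← hφ1, ← hθC 1, map_one]
  have hm0 : 0 < m := Nat.pos_of_ne_zero fun h => irr_degree_ne_zero hθ (by rw [hθ1, h, Nat.cast_zero, zero_mul])
  set C' := H.subgroupOf M with hC'
  haveI : C'.Normal := ⟨fun x hx y => by
    have h1 : (x : G) ∈ C := hinf ▸ ⟨x.2, hx⟩
    exact hCH ((inferInstance : C.Normal).conj_mem _ h1 (y : G))⟩
  have := Fintype.ofFinite C'
  have hMres : ∀ y : M, χ y = indFun C' (fun x => ψ ⟨(x : M), x.2⟩) y := fun y => by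
    rw [← hind]
    exact indFun_restrict_of_sup H M hsup (isClassFunction_of_isIrr hψ) y
  have hmemC : ∀ y : M, y ∈ C' ↔ (y : G) ∈ C := fun y =>
    ⟨fun h => hinf ▸ ⟨y.2, h⟩, fun h => hCH h⟩
  have hoff : ∀ y : M, (y : G) ∉ C → θ y = 0 := fun y hy => by
    have h1 := hθval y
    rw [hMres, indFun_apply_of_not_mem C' _ (fun h => hy ((hmemC y).mp h)), eq_comm,
      mul_eq_zero] at h1
    exact h1.resolve_left he0
  have hm2 : C'.index = m ^ 2 := by
    have h1 : (Nat.card M : ℝ) = (m : ℝ) ^ 2 * Nat.card C := by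
      rw [← CharAux.sum_normSq_irr hθ, ← CharAux.sum_normSq_irr hφ, Finset.mul_sum]
      symm
      refine Finset.sum_bij_ne_zero (fun c _ _ => iCM c) (fun _ _ _ => Finset.mem_univ _)
        (fun c _ _ c' _ _ h => Subgroup.inclusion_injective hCM h) (fun y _ hy => ?_) (fun c _ _ => ?_)
      · have hyC : (y : G) ∈ C := by
          by_contra h
          exact hy (by rw [hoff y h, map_zero])
        refine ⟨⟨y, hyC⟩, Finset.mem_univ _, fun h => hy ?_, rfl⟩
        rw [show y = iCM ⟨y, hyC⟩ from rfl, hθC, Complex.normSq_mul, Complex.normSq_natCast, ← pow_two,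
          h]
      · rw [hθC, Complex.normSq_mul, Complex.normSq_natCast, ← pow_two]
    have h2 : Nat.card C' = Nat.card C := Nat.card_congr
      { toFun := fun x => ⟨((x : M) : G), (hmemC _).mp x.2⟩
        invFun := fun c => ⟨⟨c, hCM c.2⟩, (hmemC _).mpr c.2⟩
        left_inv := fun _ => rfl
        right_inv := fun _ => rfl }
    have h3 : (Nat.card M : ℝ) = (C'.index : ℝ) * Nat.card C := by
      rw [← h2, ← Nat.cast_mul, Subgroup.index_mul_card]
    have h4 := mul_right_cancel₀ (Nat.cast_ne_zero.mpr Nat.card_pos.ne') (h3.symm.trans h1)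
    exact_mod_cast h4
  have hea : e = a * m := by
    have h1 := hMres 1
    rw [hθval, hθ1, indFun_one, hm2] at h1
    change (e : ℂ) * ((m : ℂ) * d) = ((m ^ 2 : ℕ) : ℂ) * ψ 1 at h1
    rw [hψ1] at h1
    have h3 : (e * (m * d) : ℂ) = (((a * m) * (m * d) : ℕ) : ℂ) := by rw [h1]; push_cast; ring
    have h4 : e * (m * d) = (a * m) * (m * d) := by exact_mod_cast h3
    exact Nat.eq_of_mul_eq_mul_right (Nat.mul_pos hm0 hd0) h4
  -- the matrix representations
  obtain ⟨τ, hτ⟩ := exists_matRep (isCharacter_of_isIrr hφ)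
  have hτirr : IsIrrCharacter C fun c => (τ c).trace := by rwa [funext hτ]
  obtain ⟨σ, hσ, hσC⟩ := exists_rep_extending (isCharacter_of_isIrr hθ) iCM (kronHom (Fin m) τ)
    fun c => by
      rw [kronHom_apply, Matrix.trace_kronecker, Matrix.trace_one, Fintype.card_fin, hτ, hθC]
  have hσirr : IsIrrCharacter M fun x => (σ x).trace := by rwa [funext hσ]
  obtain ⟨ρ, hρ, hρM⟩ := exists_rep_extending hχc M.subtype (kronHom (Fin a × Fin m) σ)
    fun x => by
      rw [kronHom_apply, Matrix.trace_kronecker, Matrix.trace_one, Fintype.card_prod, Fintype.card_fin,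
        Fintype.card_fin, hσ, ← hea]
      exact (hθval x).symm
  obtain ⟨μ, hμ, hμC⟩ := exists_rep_extending hψc iCH (kronHom (Fin a) τ) fun c => by
    rw [kronHom_apply, Matrix.trace_kronecker, Matrix.trace_one, Fintype.card_fin, hτ, hψC]
  -- the embedding of the inducing module
  obtain ⟨J, hJ0, hJ⟩ : ∃ J : Matrix ((Fin a × Fin m) × Fin m × Fin d) (Fin a × Fin d) ℂ,
      J ≠ 0 ∧ ∀ h : H, ρ (h : G) * J = J * μ h := by
    obtain ⟨v, hv⟩ := isCharacter_eq_sum (isCharacter_restrict hχc H)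
    let x : IrrCharacter H := ⟨ψ, hψ⟩
    have hvx : v x = 1 := by
      have h1 : classInner (fun h : H => χ h) ψ = 1 := by
        rw [classInner_conj_symm ψ, ← classInner_indFun H ψ hχcf, hind, classInner_irr_self hχ,
          map_one]
      rw [hv, classInner_sum_left, Finset.sum_eq_single x
        (fun y _ hy => by
          rw [classInner_smul_left, show ψ = (x : H → ℂ) from rfl, classInner_irrCharacter,
            if_neg hy, mul_zero])
        (fun h => absurd (Finset.mem_univ x) h), classInner_smul_left,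
        show classInner (x : H → ℂ) ψ = 1 from classInner_irr_self hψ, mul_one, Nat.cast_eq_one] at h1
      exact h1
    set η' : H → ℂ := ∑ y ∈ Finset.univ.erase x, (v y) • (y : H → ℂ) with hη'
    have hη'c : IsCharacter H η' := isCharacter_sum _ _ fun y _ =>
      isCharacter_nsmul (isCharacter_of_isIrr y.2) _
    have hsplit : ∀ h : H, χ h = ψ h + η' h := fun h => by
      have h1 := congrFun hv h
      rw [← Finset.add_sum_erase _ _ (Finset.mem_univ x), hvx, Nat.cast_one, one_smul, Pi.add_apply] at h1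
      rw [h1, hη']
      congr 1
      simp only [Finset.sum_apply, Pi.smul_apply, nsmul_eq_mul, Pi.mul_apply, Pi.natCast_apply, smul_eq_mul]
    obtain ⟨ν, hν⟩ := exists_matRep hη'c
    let β : H →* Matrix ((Fin a × Fin d) ⊕ Fin (charDegree η'))
        ((Fin a × Fin d) ⊕ Fin (charDegree η')) ℂ :=
      { toFun := fun h => Matrix.fromBlocks (μ h) 0 0 (ν h)
        map_one' := by rw [map_one, map_one, Matrix.fromBlocks_one]
        map_mul' := fun g g' => by
          rw [map_mul, map_mul, Matrix.fromBlocks_multiply]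
          simp }
    have htr : (toRep β).character = (toRep (ρ.comp H.subtype)).character := funext fun h => by
      rw [character_toRep, character_toRep]
      show (Matrix.fromBlocks (μ h) 0 0 (ν h)).trace = (ρ (h : G)).trace
      rw [hρ, hsplit, ← hμ, ← hν, Matrix.trace, Fintype.sum_sum_type]
      rfl
    obtain ⟨E⟩ := equiv_of_character_eq _ (toRep β) (toRep (ρ.comp H.subtype)) rfl htr
    let A := LinearMap.toMatrix' E.toLinearEquiv.toLinearMap
    have hA : ∀ h : H, ρ (h : G) * A = A * β h := by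
      intro h
      refine Matrix.ext_of_mulVec_single fun i => ?_
      rw [← Matrix.mulVec_mulVec, ← Matrix.mulVec_mulVec]
      simp only [A, LinearMap.toMatrix'_mulVec]
      exact (LinearMap.congr_fun (Representation.Equiv.toIntertwiningMap E |>.isIntertwining' h)
        (Pi.single i 1)).symm
    refine ⟨A.submatrix id Sum.inl, fun h0 => ?_, fun h => ?_⟩
    · let i₀ : (Fin a × Fin d) ⊕ Fin (charDegree η') :=
        Sum.inl (⟨0, Nat.pos_of_ne_zero ha0⟩, ⟨0, hd0⟩)
      have h1 : E.toLinearEquiv (Pi.single i₀ 1) = 0 := by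
        funext j
        have h2 := congrFun (congrFun h0 j) (⟨0, Nat.pos_of_ne_zero ha0⟩, ⟨0, hd0⟩)
        simpa [A, LinearMap.toMatrix'_apply, i₀] using h2
      rw [LinearEquiv.map_eq_zero_iff] at h1
      exact one_ne_zero (α := ℂ) (by simpa using congrFun h1 i₀)
    · ext j q
      have h1 := congrFun (congrFun (hA h) j) (Sum.inl q)
      rw [Matrix.mul_apply, Matrix.mul_apply, Fintype.sum_sum_type] at h1
      simpa [β, Matrix.mul_apply] using h1
  -- the shape of the embedding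
  obtain ⟨W, hW⟩ : ∃ W : Matrix ((Fin a × Fin m) × Fin m) (Fin a) ℂ, ∀ k i l r l',
      J (k, (i, l)) (r, l') = W (k, i) r * if l = l' then 1 else 0 := by
    obtain ⟨W, hW⟩ := exists_kron_one_of_commute τ hτirr
      (J.submatrix (Equiv.prodAssoc _ _ _) id) fun c => by
        ext ⟨⟨k, i⟩, l⟩ ⟨r, l'⟩
        have h1 := congrFun (congrFun (hJ (iCH c)) (k, (i, l))) (r, l')
        rw [hμC, show ((iCH c : H) : G) = M.subtype (iCM c) from rfl, hρM, kronHom_apply,
          kronHom_apply, hσC, kronHom_apply] at h1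
        simp [Matrix.mul_apply, Fintype.sum_prod_type, Matrix.one_apply] at h1 ⊢
        exact h1.symm
    exact ⟨W, fun k i l r l' => by
      simpa [Matrix.one_apply] using congrFun (congrFun hW ((k, i), l)) (r, l')⟩
  let Φ : Matrix (Fin a × Fin m) (Fin a × Fin m) ℂ := Matrix.of fun k p => W (k, p.2) p.1
  have hdec : ∀ g : G, ∃ x : M, ∃ h : H, (x : G) * h = g := fun g => by
    have hg : g ∈ ((M : Set G) * (H : Set G)) := by rw [← Subgroup.normal_mul, hsup]; trivial
    obtain ⟨x, hx, h, hh, rfl⟩ := Set.mem_mul.mp hg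
    exact ⟨⟨x, hx⟩, ⟨h, hh⟩, rfl⟩
  have hΦ : IsUnit Φ := by
    rw [← Matrix.vecMul_injective_iff_isUnit]
    intro y₁ y₂ hy
    have hy0 : (y₁ - y₂) ᵥ* Φ = 0 := by
      rw [Matrix.sub_vecMul, sub_eq_zero]; exact hy
    set y := y₁ - y₂
    let Y : (Fin a × Fin m) × Fin m × Fin d → ℂ := fun p => y p.1
    have hYM : ∀ x : M, Y ᵥ* (ρ (x : G) * J) = 0 := by
      intro x
      rw [← Matrix.vecMul_vecMul, show ρ (x : G) = _ from hρM x, kronHom_apply]
      have h1 : Y ᵥ* ((1 : Matrix (Fin a × Fin m) (Fin a × Fin m) ℂ) ⊗ₖ σ x) =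
          fun p => y p.1 * ∑ q, σ x q p.2 := by
        funext p
        simp [Y, Matrix.vecMul, dotProduct, Fintype.sum_prod_type, Matrix.one_apply, Finset.mul_sum]
        rfl
      rw [h1]
      funext ⟨r, l'⟩
      have h2 : ∀ i, ∑ k, y k * W (k, i) r = 0 := fun i => congrFun hy0 (r, i)
      simp only [Matrix.vecMul, dotProduct, Pi.zero_apply]
      rw [Fintype.sum_prod_type, Finset.sum_comm]
      refine Finset.sum_eq_zero fun il _ => ?_
      obtain ⟨i, l⟩ := il
      simp only [hW]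
      rw [Finset.sum_congr rfl (g := fun k => (y k * W (k, i) r) *
        ((∑ q, σ x q (i, l)) * if l = l' then 1 else 0)) fun k _ => by ring, ← Finset.sum_mul, h2,
        zero_mul]
    have hYG : ∀ g : G, Y ᵥ* (ρ g * J) = 0 := by
      intro g
      obtain ⟨x, h, rfl⟩ := hdec g
      rw [map_mul, Matrix.mul_assoc, hJ h, ← Matrix.mul_assoc, ← Matrix.vecMul_vecMul, hYM, Matrix.zero_vecMul]
    have hY0 : Y = 0 := by
      obtain ⟨j, c, hjc⟩ : ∃ j c, J j c ≠ 0 := by
        by_contra h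
        push Not at h
        exact hJ0 (Matrix.ext h)
      have hZ := eq_zero_of_trace_mul ρ (by rwa [funext hρ])
        (Matrix.vecMulVec (fun p => J p c) Y) fun g => by
          have h1 := congrFun (hYG g) c
          rw [← Matrix.vecMul_vecMul] at h1
          rw [Matrix.vecMulVec_mul, Matrix.trace_vecMulVec, dotProduct_comm]
          exact h1
      funext p
      have := congrFun (congrFun hZ j) p
      simpa [Matrix.vecMulVec_apply, hjc] using this
    funext k
    have := congrFun hY0 (k, (⟨0, hm0⟩, ⟨0, hd0⟩))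
    exact sub_eq_zero.mp this
  obtain ⟨Φu, hΦu⟩ := hΦ
  let Φ2 : Matrix ((Fin a × Fin m) × Fin m × Fin d) ((Fin a × Fin m) × Fin m × Fin d) ℂ :=
    Φ ⊗ₖ (1 : Matrix (Fin m × Fin d) (Fin m × Fin d) ℂ)
  let Φ2' : Matrix ((Fin a × Fin m) × Fin m × Fin d) ((Fin a × Fin m) × Fin m × Fin d) ℂ :=
    ((Φu⁻¹ : (Matrix (Fin a × Fin m) (Fin a × Fin m) ℂ)ˣ) : Matrix _ _ ℂ) ⊗ₖ
      (1 : Matrix (Fin m × Fin d) (Fin m × Fin d) ℂ)
  have hΦ12 : Φ2 * Φ2' = 1 := by
    rw [← Matrix.mul_kronecker_mul, ← hΦu, Units.mul_inv, mul_one, Matrix.one_kronecker_one]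
  have hΦ21 : Φ2' * Φ2 = 1 := by
    rw [← Matrix.mul_kronecker_mul, ← hΦu, Units.inv_mul, mul_one, Matrix.one_kronecker_one]
  let R : G →* Matrix ((Fin a × Fin m) × Fin m × Fin d) ((Fin a × Fin m) × Fin m × Fin d) ℂ :=
    { toFun := fun g => Φ2' * ρ g * Φ2
      map_one' := by rw [map_one, mul_one, hΦ21]
      map_mul' := fun g g' => by
        rw [map_mul]
        symm
        calc Φ2' * ρ g * Φ2 * (Φ2' * ρ g' * Φ2) = Φ2' * ρ g * (Φ2 * Φ2') * ρ g' * Φ2 := by
              simp only [mul_assoc]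
          _ = Φ2' * (ρ g * ρ g') * Φ2 := by rw [hΦ12, mul_one]; simp only [mul_assoc] }
  have hRtr : ∀ g, (R g).trace = χ g := fun g => by
    show (Φ2' * ρ g * Φ2).trace = _
    rw [Matrix.trace_mul_comm, ← mul_assoc, hΦ12, one_mul, hρ]
  have hRM : ∀ x : M, R (x : G) = (1 : Matrix (Fin a × Fin m) (Fin a × Fin m) ℂ) ⊗ₖ σ x := fun x => by
    show Φ2' * ρ (x : G) * Φ2 = _
    rw [show ρ (x : G) = _ from hρM x, kronHom_apply, ← Matrix.mul_kronecker_mul,
      ← Matrix.mul_kronecker_mul, mul_one, one_mul, mul_one, ← hΦu, Units.inv_mul]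
  let J0 : Matrix ((Fin a × Fin m) × Fin m × Fin d) (Fin a × Fin d) ℂ :=
    Matrix.of fun p q => if p.1.1 = q.1 ∧ p.1.2 = p.2.1 ∧ p.2.2 = q.2 then 1 else 0
  have hJJ0 : J = Φ2 * J0 := by
    ext ⟨k, i, l⟩ ⟨r, l'⟩
    rw [hW]
    simp [Φ2, Φ, J0, Matrix.mul_apply, Fintype.sum_prod_type, Matrix.one_apply, ite_and]
  have hRJ : ∀ h : H, R (h : G) * J0 = J0 * μ h := fun h => by
    show Φ2' * ρ (h : G) * Φ2 * J0 = _
    rw [Matrix.mul_assoc, ← hJJ0, Matrix.mul_assoc, hJ, hJJ0, ← Matrix.mul_assoc, ← Matrix.mul_assoc, hΦ21,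
      Matrix.one_mul]
  have hRne : ∀ g, R g ≠ 0 := fun g h => hχ1 (by
    have h1 : R 1 = 0 := by rw [← mul_inv_cancel g, map_mul, h, zero_mul]
    rw [← hRtr, h1, Matrix.trace_zero])
  -- tensor decomposition of every element
  have hθinv : ∀ g : G, ∀ x : M, θ (MulAut.conjNormal g x) = θ x := fun g x => by
    refine mul_left_cancel₀ he0 ?_
    rw [← hθval, ← hθval, MulAut.conjNormal_apply]
    exact hχcf x g
  have hφinv : ∀ g : G, ∀ x : C, φ (MulAut.conjNormal g x) = φ x := fun g x => by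
    refine mul_left_cancel₀ hf0 ?_
    rw [← hφval, ← hφval, MulAut.conjNormal_apply]
    exact hχcf x g
  have htensor : ∀ g : G, ∃ (A : Matrix (Fin a × Fin m) (Fin a × Fin m) ℂ) (u : Matrix (Fin m) (Fin m) ℂ)
      (Q : Matrix (Fin d) (Fin d) ℂ), IsUnit u.det ∧ IsUnit Q.det ∧ R g = A ⊗ₖ (u ⊗ₖ Q) := by
    intro g
    obtain ⟨P, hP⟩ := exists_conj σ (σ.comp (MulAut.conjNormal g : MulAut M).toMonoidHom) fun x => by
      rw [hσ, MonoidHom.comp_apply, hσ]; exact (hθinv g x).symm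
    obtain ⟨Q, hQ⟩ := exists_conj τ (τ.comp (MulAut.conjNormal g : MulAut C).toMonoidHom) fun x => by
      rw [hτ, MonoidHom.comp_apply, hτ]; exact (hφinv g x).symm
    obtain ⟨u, hu⟩ := exists_kron_one_of_commute τ hτirr
      (((1 : Matrix (Fin m) (Fin m) ℂ) ⊗ₖ ((Q⁻¹ : (Matrix (Fin d) (Fin d) ℂ)ˣ) : Matrix _ _ ℂ)) *
        (P : Matrix _ _ ℂ)) fun c => by
      have h1 := hP (iCM c)
      rw [MonoidHom.comp_apply, hσC, kronHom_apply] at h1
      have h2 : (MulAut.conjNormal g : MulAut M).toMonoidHom (iCM c) =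
          iCM ((MulAut.conjNormal g : MulAut C) c) := Subtype.ext rfl
      rw [h2, hσC, kronHom_apply, show τ ((MulAut.conjNormal g : MulAut C) c) = _ from hQ c] at h1
      have h3 : (P : Matrix _ _ ℂ) * ((1 : Matrix (Fin m) (Fin m) ℂ) ⊗ₖ τ c) =
          ((1 : Matrix (Fin m) (Fin m) ℂ) ⊗ₖ ((Q : Matrix _ _ ℂ) * τ c * ((Q⁻¹ : (Matrix (Fin d) (Fin d) ℂ)ˣ) : Matrix _ _ ℂ))) *
            (P : Matrix _ _ ℂ) := by
        rw [h1, Units.inv_mul_cancel_right]
      rw [mul_assoc, h3, ← mul_assoc, ← mul_assoc, ← Matrix.mul_kronecker_mul,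
        ← Matrix.mul_kronecker_mul, mul_one, ← mul_assoc, ← mul_assoc, Units.inv_mul, one_mul]
    have hPu : (P : Matrix (Fin m × Fin d) (Fin m × Fin d) ℂ) = u ⊗ₖ (Q : Matrix (Fin d) (Fin d) ℂ) := by
      have h1 := congrArg (((1 : Matrix (Fin m) (Fin m) ℂ) ⊗ₖ (Q : Matrix _ _ ℂ)) * ·) hu
      simp only [← mul_assoc, ← Matrix.mul_kronecker_mul, one_mul, mul_one, Units.mul_inv,
        Matrix.one_kronecker_one] at h1
      exact h1
    have hdet : IsUnit u.det := by
      have h1 : IsUnit (P : Matrix (Fin m × Fin d) (Fin m × Fin d) ℂ).det :=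
        (Matrix.isUnit_iff_isUnit_det (P : Matrix (Fin m × Fin d) (Fin m × Fin d) ℂ)).mp P.isUnit
      rw [hPu, Matrix.det_kronecker, IsUnit.mul_iff, Fintype.card_fin] at h1
      exact (isUnit_pow_iff hd0.ne').mp h1.1
    obtain ⟨A, hA⟩ := exists_kron_one_of_commute σ hσirr
      (R g * ((1 : Matrix (Fin a × Fin m) (Fin a × Fin m) ℂ) ⊗ₖ
        ((P⁻¹ : (Matrix (Fin m × Fin d) (Fin m × Fin d) ℂ)ˣ) : Matrix _ _ ℂ))) fun y => by
      obtain ⟨x, rfl⟩ := (MulAut.conjNormal g : MulAut M).surjective y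
      have h1 : σ ((MulAut.conjNormal g : MulAut M) x) = _ := hP x
      have h2 : R g * R (x : G) = R (((MulAut.conjNormal g : MulAut M) x : M) : G) * R g := by
        rw [← map_mul, ← map_mul, MulAut.conjNormal_apply]
        congr 1
        group
      rw [hRM, hRM] at h2
      rw [← mul_assoc, ← h2, mul_assoc, mul_assoc, ← Matrix.mul_kronecker_mul,
        ← Matrix.mul_kronecker_mul, h1, mul_one, ← mul_assoc, ← mul_assoc, Units.inv_mul, one_mul]
    refine ⟨A, u, (Q : Matrix (Fin d) (Fin d) ℂ), hdet, (Matrix.isUnit_iff_isUnit_det _).mp Q.isUnit, ?_⟩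
    have h1 := congrArg (· * ((1 : Matrix (Fin a × Fin m) (Fin a × Fin m) ℂ) ⊗ₖ
      (P : Matrix _ _ ℂ))) hA
    simp only [mul_assoc, ← Matrix.mul_kronecker_mul, one_mul, mul_one, Units.inv_mul,
      Matrix.one_kronecker_one] at h1
    rw [h1, hPu]
  -- the elements of `H`
  let Good : G → Matrix (Fin m) (Fin m) ℂ → Prop := fun g u => IsUnit u.det ∧
    ∃ (A : Matrix (Fin a) (Fin a) ℂ) (Q : Matrix (Fin d) (Fin d) ℂ), IsUnit Q.det ∧
      R g = (A ⊗ₖ uᵀ⁻¹) ⊗ₖ (u ⊗ₖ Q)
  have hgoodH : ∀ h : H, ∃ u, Good (h : G) u := by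
    intro h
    obtain ⟨A, u, Q, hu, hQ, hR⟩ := htensor (h : G)
    have hQne : Q ≠ 0 := fun h0 => by
      haveI : Nonempty (Fin d) := ⟨⟨0, hd0⟩⟩
      rw [h0, Matrix.det_zero] at hQ
      exact not_isUnit_zero hQ
    obtain ⟨l, l', hll⟩ : ∃ l l', Q l l' ≠ 0 := by
      by_contra hc
      push Not at hc
      exact hQne (Matrix.ext hc)
    let A' : Matrix (Fin a) (Fin a) ℂ := Matrix.of fun r' r => μ h (r', l) (r, l') / Q l l'
    have hB : A * ((1 : Matrix (Fin a) (Fin a) ℂ) ⊗ₖ uᵀ) = A' ⊗ₖ (1 : Matrix (Fin m) (Fin m) ℂ) := by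
      ext ⟨r', i'⟩ ⟨r, i⟩
      have h1 := congrFun (congrFun (hRJ h) ((r', i'), (i, l))) (r, l')
      rw [hR] at h1
      simp [J0, Matrix.mul_apply, Fintype.sum_prod_type, ite_and] at h1
      simp only [Matrix.mul_apply, Fintype.sum_prod_type, Matrix.kroneckerMap_apply,
        Matrix.transpose_apply, Matrix.one_apply, A', Matrix.of_apply, ite_mul, one_mul, zero_mul,
        mul_ite, mul_zero]
      rw [Finset.sum_comm]
      simp only [Finset.sum_ite_eq', Finset.mem_univ, if_true]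
      by_cases hii : i' = i
      · subst hii
        rw [if_pos rfl, mul_one, eq_div_iff hll, Finset.sum_mul]
        simp only [mul_assoc] at h1 ⊢
        simp only [if_true] at h1
        exact h1
      · rw [if_neg hii]
        rw [if_neg hii] at h1
        refine (mul_eq_zero.mp ?_).resolve_right hll
        rw [Finset.sum_mul]
        simp only [mul_assoc] at h1 ⊢
        exact h1
    refine ⟨u, hu, A', Q, hQ, ?_⟩
    have hut : IsUnit uᵀ.det := by rwa [Matrix.det_transpose]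
    have h2 : A = A' ⊗ₖ uᵀ⁻¹ := by
      have h1 := congrArg (· * ((1 : Matrix (Fin a) (Fin a) ℂ) ⊗ₖ uᵀ⁻¹)) hB
      simp only [mul_assoc, ← Matrix.mul_kronecker_mul, one_mul, mul_one,
        Matrix.mul_nonsing_inv _ hut, Matrix.one_kronecker_one] at h1
      exact h1
    rw [hR, h2]
  have hgood1 : ∀ c : C, Good (c : G) 1 := by
    intro c
    refine ⟨by rw [Matrix.det_one]; exact isUnit_one, 1, τ c, ?_, ?_⟩
    · refine IsUnit.of_mul_eq_one _ (?_ : (τ c).det * (τ c⁻¹).det = 1)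
      rw [← Matrix.det_mul, mul_inv_rep, Matrix.det_one]
    rw [Matrix.transpose_one, inv_one, Matrix.one_kronecker_one,
      show R (c : G) = R ((iCM c : M) : G) from rfl, hRM, hσC, kronHom_apply]
  have hgmul : ∀ {g g' : G} {u v : Matrix (Fin m) (Fin m) ℂ}, Good g u → Good g' v →
      Good (g * g') (u * v) := by
    rintro g g' u v ⟨hu, A, Q, hQ, h1⟩ ⟨hv, A', Q', hQ', h2⟩
    refine ⟨by rw [Matrix.det_mul]; exact hu.mul hv, A * A', Q * Q',
      by rw [Matrix.det_mul]; exact hQ.mul hQ', ?_⟩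
    rw [map_mul, h1, h2, ← Matrix.mul_kronecker_mul, ← Matrix.mul_kronecker_mul,
      ← Matrix.mul_kronecker_mul, Matrix.transpose_mul, Matrix.mul_inv_rev]
  have hguniq : ∀ {g : G} {u v : Matrix (Fin m) (Fin m) ℂ}, Good g u → Good g v →
      ∃ c : ℂ, c ≠ 0 ∧ v = c • u := by
    rintro g u v ⟨hu, A, Q, -, h1⟩ ⟨hv, A', Q', -, h2⟩
    obtain ⟨c, hc, h3⟩ := eq_smul_of_kron_eq (h1.symm.trans h2) (h1 ▸ hRne g)
    have h4 : v ⊗ₖ Q' = u ⊗ₖ (c • Q) := by rw [h3, Matrix.kronecker_smul]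
    obtain ⟨i, j, hij⟩ : ∃ i j, Q' i j ≠ 0 := by
      by_contra hc'
      push Not at hc'
      apply hRne g
      rw [h2, show Q' = 0 from Matrix.ext hc', Matrix.kronecker_zero, Matrix.kronecker_zero]
    have hv' : v = ((c * Q i j) / Q' i j) • u := by
      ext p q
      have h5 := congrFun (congrFun h4 (p, i)) (q, j)
      simp only [Matrix.kroneckerMap_apply, Matrix.smul_apply, smul_eq_mul] at h5
      rw [Matrix.smul_apply, smul_eq_mul, div_mul_eq_mul_div, eq_div_iff hij, h5]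
      ring
    refine ⟨_, fun h0 => ?_, hv'⟩
    rw [hv', h0, zero_smul] at hv
    haveI : Nonempty (Fin m) := ⟨⟨0, hm0⟩⟩
    rw [Matrix.det_zero] at hv
    exact not_isUnit_zero hv
  -- the commuting family
  let KH : Subgroup G := K ⊓ H
  have hgpow : ∀ {g : G} {u : Matrix (Fin m) (Fin m) ℂ}, Good g u → ∀ k : ℕ,
      Good (g ^ k) (u ^ k) := by
    intro g u hg k
    induction k with
    | zero => rw [pow_zero, pow_zero]; exact hgood1 1
    | succ k ih => rw [pow_succ, pow_succ]; exact hgmul ih hg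
  have hcommu : ∀ h ∈ KH, ∀ k ∈ KH, ∀ u v, Good h u → Good k v → u * v = v * u := by
    intro h hh k hk u v hu hv
    have h1 := hgmul (hgmul hv hu) (hgood1 ⟨_, habel h hh k hk⟩)
    have h2 : k * h * (h⁻¹ * k⁻¹ * h * k) = h * k := by group
    simp only [mul_one] at h1
    rw [h2] at h1
    obtain ⟨c, hc0, hc⟩ := hguniq h1 (hgmul hu hv)
    have hcm : c ^ m = 1 := by
      have h3 := congrArg Matrix.det hc
      rw [Matrix.det_mul, Matrix.det_smul, Fintype.card_fin, Matrix.det_mul, mul_comm v.det] at h3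
      exact (mul_eq_right₀ (hu.1.mul hv.1).ne_zero).mp h3.symm
    set N := M.relIndex K with hN
    have hkN : k ^ N ∈ C := by
      haveI : (M.subgroupOf K).Normal := inferInstance
      have h3 : (⟨k, hk.1⟩ : K) ^ N ∈ M.subgroupOf K := Subgroup.pow_index_mem _ _
      rw [← hinf]
      exact ⟨h3, H.pow_mem hk.2 N⟩
    obtain ⟨s, hs0, hs⟩ := hguniq (hgood1 ⟨_, hkN⟩) (hgpow hv N)
    have hit : ∀ i : ℕ, u * v ^ i = c ^ i • (v ^ i * u) := by
      intro i
      induction i with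
      | zero => simp
      | succ i ih =>
        rw [pow_succ, ← mul_assoc, ih, smul_mul_assoc, mul_assoc, hc, mul_smul_comm, smul_smul,
          ← pow_succ, ← mul_assoc]
    have hcN : c ^ N = 1 := by
      have h3 := hit N
      rw [hs, mul_smul_comm, smul_mul_assoc, mul_one, one_mul, smul_smul] at h3
      have hu0 : u ≠ 0 := fun h0 => by
        haveI : Nonempty (Fin m) := ⟨⟨0, hm0⟩⟩
        have := hu.1
        rw [h0, Matrix.det_zero] at this
        exact not_isUnit_zero this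
      exact ((mul_eq_right₀ hs0).mp (smul_left_injective ℂ hu0 h3).symm)
    have hcop' : Nat.Coprime m N := by
      have h3 : H.relIndex M = m ^ 2 := hm2
      rw [h3] at hcop
      exact (Nat.coprime_pow_left_iff two_pos _ _).mp hcop
    have hc1 : c = 1 := by
      have := pow_gcd_eq_one.mpr ⟨hcm, hcN⟩
      rwa [hcop'.gcd_eq_one, pow_one] at this
    rw [hc, hc1, one_smul]
  let T : Matrix (Fin m) (Fin m) ℂ →
      Matrix ((Fin a × Fin m) × Fin m × Fin d) ((Fin a × Fin m) × Fin m × Fin d) ℂ := fun u =>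
    ((1 : Matrix (Fin a) (Fin a) ℂ) ⊗ₖ uᵀ⁻¹) ⊗ₖ (1 : Matrix (Fin m × Fin d) (Fin m × Fin d) ℂ)
  let 𝒯 : Set (Matrix ((Fin a × Fin m) × Fin m × Fin d) ((Fin a × Fin m) × Fin m × Fin d) ℂ) :=
    {A | ∃ h ∈ KH, ∃ u, Good h u ∧ A = T u}
  have hTmul : ∀ u v, T u * T v = T (u * v) := fun u v => by
    simp only [T, ← Matrix.mul_kronecker_mul, mul_one, Matrix.transpose_mul, Matrix.mul_inv_rev]
  have hTM : ∀ u, ∀ x : M, T u * R (x : G) = R (x : G) * T u := fun u x => by
    rw [hRM]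
    simp only [T, ← Matrix.mul_kronecker_mul, mul_one, one_mul]
  have hTH : ∀ u v g, Good g v → ∀ c : ℂ, ∀ u',
      (uᵀ⁻¹ * vᵀ⁻¹ = c • (vᵀ⁻¹ * u'ᵀ⁻¹)) → T u * R g = c • (R g * T u') := by
    rintro u v g ⟨-, A, Q, -, hR⟩ c u' hc
    simp only [T, hR, ← Matrix.mul_kronecker_mul, mul_one, one_mul, hc]
    rw [Matrix.kronecker_smul, Matrix.smul_kronecker]
  refine exists_indFun_of_family R hRtr hχ 𝒯 ?_ ?_ K ?_ ?_
  · rintro _ ⟨h, hh, u, hu, rfl⟩ _ ⟨k, hk, v, hv, rfl⟩
    rw [hTmul, hTmul, hcommu h hh k hk u v hu hv]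
  · rintro g _ ⟨h, hh, u, hu, rfl⟩
    obtain ⟨x, h₀, rfl⟩ := hdec g
    obtain ⟨v, hv⟩ := hgoodH h₀
    have hmem : (h₀ : G)⁻¹ * h * h₀ ∈ KH :=
      ⟨by simpa using (inferInstance : K.Normal).conj_mem h hh.1 (h₀ : G)⁻¹,
        H.mul_mem (H.mul_mem (H.inv_mem h₀.2) hh.2) h₀.2⟩
    obtain ⟨u', hu'⟩ := hgoodH ⟨_, hmem.2⟩
    have h1 := hgmul hv hu'
    rw [show (h₀ : G) * ((h₀ : G)⁻¹ * h * h₀) = h * h₀ by group] at h1
    obtain ⟨s, hs0, hs⟩ := hguniq (hgmul hu hv) h1
    refine ⟨s, T u', ⟨_, hmem, u', hu', rfl⟩, ?_⟩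
    have h2 : uᵀ⁻¹ * vᵀ⁻¹ = s • (vᵀ⁻¹ * u'ᵀ⁻¹) := by
      rw [← Matrix.mul_inv_rev, ← Matrix.mul_inv_rev, ← Matrix.transpose_mul,
        ← Matrix.transpose_mul, hs, Matrix.transpose_smul]
      have hdet : IsUnit (u * v)ᵀ.det := by
        rw [Matrix.det_transpose, Matrix.det_mul]; exact hu.1.mul hv.1
      have h4 : (s • (u * v)ᵀ)⁻¹ = s⁻¹ • (u * v)ᵀ⁻¹ := by
        refine Matrix.inv_eq_right_inv ?_
        rw [smul_mul_assoc, mul_smul_comm, smul_smul, mul_inv_cancel₀ hs0, one_smul,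
          Matrix.mul_nonsing_inv _ hdet]
      rw [h4, smul_smul, mul_inv_cancel₀ hs0, one_smul]
    rw [map_mul, ← mul_assoc, hTM, mul_assoc, hTH u v (h₀ : G) hv s u' h2,
      mul_smul_comm, mul_assoc]
  · rintro k hk _ ⟨h, hh, u, hu, rfl⟩
    obtain ⟨x, h₀, rfl⟩ := hdec k
    obtain ⟨v, hv⟩ := hgoodH h₀
    have hmem : (h₀ : G) ∈ KH :=
      ⟨by simpa using K.mul_mem (K.inv_mem (hMK x.2)) hk, h₀.2⟩
    have h2 : uᵀ⁻¹ * vᵀ⁻¹ = (1 : ℂ) • (vᵀ⁻¹ * uᵀ⁻¹) := by
      rw [one_smul, ← Matrix.mul_inv_rev, ← Matrix.mul_inv_rev, ← Matrix.transpose_mul,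
        ← Matrix.transpose_mul, hcommu h hh _ hmem u v hu hv]
    rw [map_mul, ← mul_assoc, hTM, mul_assoc, hTH u v (h₀ : G) hv 1 u h2,
      one_smul, mul_assoc]
  · obtain ⟨h, hh, hhC⟩ : ∃ h ∈ KH, h ∉ C := by
      by_contra hc
      push Not at hc
      exact hne (le_antisymm hc (le_inf (hCM.trans hMK) hCH))
    obtain ⟨u, hu⟩ := hgoodH ⟨h, hh.2⟩
    refine ⟨T u, ⟨h, hh, u, hu, rfl⟩, fun c hc => hhC (hfaith h hh fun x hx => ?_)⟩
    by_contra hyC
    let k₀ : Fin a := ⟨0, Nat.pos_of_ne_zero ha0⟩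
    let l₀ : Fin d := ⟨0, hd0⟩
    let i₀ : Fin m := ⟨0, hm0⟩
    have hvc : uᵀ⁻¹ = c • (1 : Matrix (Fin m) (Fin m) ℂ) := by
      ext i j
      have h1 := congrFun (congrFun hc ((k₀, i), (i₀, l₀))) ((k₀, j), (i₀, l₀))
      simpa [T, Matrix.one_apply] using h1
    have hut : IsUnit uᵀ.det := by rw [Matrix.det_transpose]; exact hu.1
    have huc : u = c⁻¹ • (1 : Matrix (Fin m) (Fin m) ℂ) := by
      have h1 := Matrix.mul_nonsing_inv uᵀ hut
      rw [hvc, mul_smul_comm, mul_one] at h1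
      have hc0 : c ≠ 0 := by
        rintro rfl
        rw [zero_smul] at h1
        exact zero_ne_one (α := ℂ) (by simpa using congrFun (congrFun h1 i₀) i₀)
      have h2 := congrArg Matrix.transpose h1
      rw [Matrix.transpose_smul, Matrix.transpose_transpose, Matrix.transpose_one] at h2
      rw [← h2, smul_smul, inv_mul_cancel₀ hc0, one_smul]
    obtain ⟨-, A, Q, hQ, hR⟩ := hu
    haveI : Nonempty (Fin m) := ⟨i₀⟩
    haveI : Nonempty (Fin d) := ⟨l₀⟩
    set Z : Matrix (Fin d) (Fin d) ℂ := c⁻¹ • Q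
    have hc0 : c ≠ 0 := by
      rintro rfl
      rw [zero_smul] at hvc
      have h1 := Matrix.mul_nonsing_inv uᵀ hut
      rw [hvc, mul_zero] at h1
      exact zero_ne_one h1
    have hZ : IsUnit Z.det := by
      rw [Matrix.det_smul]; exact ((isUnit_iff_ne_zero.mpr (inv_ne_zero hc0)).pow _).mul hQ
    have hR' : R h = (A ⊗ₖ uᵀ⁻¹) ⊗ₖ ((1 : Matrix (Fin m) (Fin m) ℂ) ⊗ₖ Z) := by
      rw [hR]
      congr 1
      rw [huc, Matrix.smul_kronecker, Matrix.kronecker_smul]
    obtain ⟨A1, u1, Q1, hu1, hQ1, hx1⟩ := htensor x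
    rw [show R x = R ((⟨x, hx⟩ : M) : G) from rfl, hRM] at hx1
    obtain ⟨t, ht0, ht⟩ := eq_smul_of_kron_eq hx1.symm (by
      rw [← hx1, ← hRM]; exact hRne _)
    set y : M := ⟨x * h * x⁻¹ * h⁻¹, by
      have h1 : h * x⁻¹ * h⁻¹ ∈ M := (inferInstance : M.Normal).conj_mem _ (M.inv_mem hx) h
      simpa [mul_assoc] using M.mul_mem hx h1⟩ with hy
    have h1 : R (y : G) * R h * R ((⟨x, hx⟩ : M) : G) = R ((⟨x, hx⟩ : M) : G) * R h := by
      rw [← map_mul, ← map_mul, ← map_mul]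
      congr 1
      show x * h * x⁻¹ * h⁻¹ * h * x = x * h
      group
    rw [hRM, hRM, hR', ← Matrix.mul_kronecker_mul, ← Matrix.mul_kronecker_mul,
      ← Matrix.mul_kronecker_mul, one_mul, mul_one] at h1
    have hAne : A ⊗ₖ uᵀ⁻¹ ≠ 0 := left_ne_zero_of_kron (hR' ▸ hRne h)
    obtain ⟨p, q, hpq⟩ : ∃ p q, (A ⊗ₖ uᵀ⁻¹) p q ≠ 0 := by
      by_contra hc'
      push Not at hc'
      exact hAne (Matrix.ext hc')
    have h2 : σ y * ((1 : Matrix (Fin m) (Fin m) ℂ) ⊗ₖ Z) * σ ⟨x, hx⟩ =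
        σ ⟨x, hx⟩ * ((1 : Matrix (Fin m) (Fin m) ℂ) ⊗ₖ Z) := by
      ext i j
      exact mul_left_cancel₀ hpq (congrFun (congrFun h1 (p, i)) (q, j))
    rw [ht, mul_smul_comm, smul_mul_assoc, mul_assoc, ← Matrix.mul_kronecker_mul,
      ← Matrix.mul_kronecker_mul, one_mul, mul_one] at h2
    have h3 := smul_right_injective _ ht0 h2
    set Z' : Matrix (Fin d) (Fin d) ℂ := Q1 * Z * (Z * Q1)⁻¹
    have hy' : σ y = (1 : Matrix (Fin m) (Fin m) ℂ) ⊗ₖ Z' := by
      have hZQ : IsUnit (Z * Q1).det := by rw [Matrix.det_mul]; exact hZ.mul hQ1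
      have h4 := congrArg (· * (u1⁻¹ ⊗ₖ (Z * Q1)⁻¹)) h3
      simp only [mul_assoc, ← Matrix.mul_kronecker_mul, Matrix.mul_nonsing_inv _ hu1,
        Matrix.mul_nonsing_inv _ hZQ, Matrix.one_kronecker_one, mul_one] at h4
      rw [h4]
      simp only [Z', mul_assoc]
    have hZ0 : Z' = 0 := eq_zero_of_trace_mul τ hτirr Z' fun k => by
      have h4 : (σ (y * iCM k)).trace = 0 := by
        rw [hσ]
        refine hoff _ fun hm => hyC ?_
        have h5 : (y : G) * (k : G) ∈ C := hm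
        simpa [hy] using C.mul_mem h5 (C.inv_mem k.2)
      rw [map_mul, hy', hσC, kronHom_apply, ← Matrix.mul_kronecker_mul, one_mul,
        Matrix.trace_kronecker, Matrix.trace_one, Fintype.card_fin, mul_eq_zero] at h4
      exact h4.resolve_left (Nat.cast_ne_zero.mpr hm0.ne')
    exact hRne (y : G) (by rw [hRM, hy', hZ0, Matrix.kronecker_zero, Matrix.kronecker_zero])

end Cfsg.Agent.Lib.CharClifford
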