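import Cfsg.Agent.Lib.CharClifford.MatrixRep
import Cfsg.Agent.Lib.Char.Degree
import Mathlib.Tactic

/-!
A commuting family of matrices that is projectively permuted by an irreducible representation gives
a system of imprimitivity.
-/

set_option autoImplicit false

open scoped ComplexConjugate

namespace Cfsg.Agent.Lib.CharClifford

open Cfsg Cfsg.Agent.Lib.Char Matrix Module

universe u

/-- Simultaneous eigenvectors for pairwise different eigenvalue systems are independent. -/
theorem eq_zero_of_joint_eigen {V ι κ : Type*} [AddCommGroup V] [Module ℂ V]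
    (T : κ → Module.End ℂ V) (μ : ι → κ → ℂ) (hμ : Function.Injective μ)
    (s : Finset ι) : ∀ v : ι → V, (∀ i ∈ s, ∀ t, T t (v i) = μ i t • v i) →
      ∑ i ∈ s, v i = 0 → ∀ i ∈ s, v i = 0 := by
  classical
  induction s using Finset.induction with
  | empty => intro v _ _ i hi; exact absurd hi (Finset.notMem_empty i)
  | insert a s ha ih =>
    intro v hv hsum
    have hrest : ∀ i ∈ s, v i = 0 := by
      intro i hi
      obtain ⟨t, ht⟩ : ∃ t, μ i t ≠ μ a t := by
        by_contra h
        push Not at h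
        exact ha (hμ (funext h) ▸ hi)
      have h1 := congrArg (T t) hsum
      rw [map_zero, map_sum, Finset.sum_congr rfl fun j hj => hv j hj t,
        Finset.sum_insert ha] at h1
      have h2 := congrArg (μ a t • ·) hsum
      simp only [smul_zero, Finset.sum_insert ha, smul_add, Finset.smul_sum] at h2
      have h3 : ∑ j ∈ s, (μ j t - μ a t) • v j = 0 := by
        simp only [sub_smul, Finset.sum_sub_distrib]
        have h12 := h1.trans h2.symm
        rw [add_right_inj] at h12
        rw [h12, sub_self]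
      have h4 := ih (fun j => (μ j t - μ a t) • v j)
        (fun j hj t' => by
          rw [map_smul, hv j (Finset.mem_insert_of_mem hj) t', smul_comm]) h3 i hi
      exact (smul_eq_zero.mp h4).resolve_left (sub_ne_zero.mpr ht)
    intro i hi
    rcases Finset.mem_insert.mp hi with rfl | hi
    · rwa [Finset.sum_insert ha, Finset.sum_eq_zero hrest, add_zero] at hsum
    · exact hrest i hi

variable {G : Type u} [Group G] [Fintype G] {n : Type} [Fintype n] [DecidableEq n]

/-- A commuting family, projectively permuted by an irreducible representation, fixed by a subgroup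
`K` and not consisting of scalars, forces induction from a proper subgroup containing `K`. -/
theorem exists_indFun_of_family (σ : G →* Matrix n n ℂ) {χ : G → ℂ}
    (hσ : ∀ g, (σ g).trace = χ g) (hχ : IsIrrCharacter G χ) (𝒯 : Set (Matrix n n ℂ))
    (hcomm : ∀ A ∈ 𝒯, ∀ B ∈ 𝒯, A * B = B * A)
    (htw : ∀ g : G, ∀ A ∈ 𝒯, ∃ c : ℂ, ∃ B ∈ 𝒯, A * σ g = c • (σ g * B))
    (K : Subgroup G) (hK : ∀ k ∈ K, ∀ A ∈ 𝒯, A * σ k = σ k * A)
    (hns : ∃ A ∈ 𝒯, ∀ c : ℂ, A ≠ c • 1) :
    ∃ (S : Subgroup G) (η : S → ℂ), K ≤ S ∧ S ≠ ⊤ ∧ IsCharacter S η ∧ indFun S η = χ := by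
  classical
  set ρ := toRep σ with hρdef
  have hρχ : ρ.character = χ := funext fun g => by rw [character_toRep, hσ]
  haveI hirr : ρ.IsIrreducible := isIrreducible_of_isIrrCharacter ρ (by rwa [hρχ])
  have hVnt : Nontrivial (n → ℂ) := by
    have h0 : χ 1 ≠ 0 := irr_degree_ne_zero hχ
    rw [← hρχ, Representation.char_one, Nat.cast_ne_zero] at h0
    exact Module.nontrivial_of_finrank_pos (Nat.pos_of_ne_zero h0)
  let T : 𝒯 → Module.End ℂ (n → ℂ) := fun A => Matrix.toLinAlgEquiv' (A : Matrix n n ℂ)
  have hT : ∀ (A : 𝒯) v, T A v = (A : Matrix n n ℂ) *ᵥ v := fun _ _ => rfl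
  have htwv : ∀ (g : G) (A : 𝒯), ∃ c : ℂ, ∃ B : 𝒯, ∀ v, T A (ρ g v) = c • ρ g (T B v) := by
    intro g A
    obtain ⟨c, B, hB, he⟩ := htw g A A.2
    refine ⟨c, ⟨B, hB⟩, fun v => ?_⟩
    rw [hT, hρdef, toRep_apply, toRep_apply, hT, Matrix.mulVec_mulVec, he, Matrix.smul_mulVec,
      Matrix.mulVec_mulVec]
  -- a simultaneous eigenvector
  obtain ⟨lam, v₀, hv₀, hlam⟩ : ∃ (lam : 𝒯 → ℂ) (v : n → ℂ), v ≠ 0 ∧ ∀ A, T A v = lam A • v := by
    let P : Set ℕ := {k | ∃ W : Submodule ℂ (n → ℂ), W ≠ ⊥ ∧ (∀ A, ∀ w ∈ W, T A w ∈ W) ∧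
      finrank ℂ W = k}
    obtain ⟨k, ⟨W, hW, hWinv, hWk⟩, hmin⟩ := WellFounded.has_min (wellFounded_lt (α := ℕ)) P
      ⟨_, ⊤, top_ne_bot, fun _ _ _ => Submodule.mem_top, rfl⟩
    haveI : Nontrivial W := Submodule.nontrivial_iff_ne_bot.mpr hW
    have hs : ∀ A, ∃ c : ℂ, ∀ w ∈ W, T A w = c • w := by
      intro A
      obtain ⟨c, hc⟩ := Module.End.exists_eigenvalue ((T A).restrict (hWinv A))
      obtain ⟨w, hw, hw0⟩ := hc.exists_hasEigenvector
      let W' : Submodule ℂ (n → ℂ) := W ⊓ LinearMap.ker (T A - c • (1 : Module.End ℂ (n → ℂ)))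
      have hmem : ∀ x, x ∈ W' ↔ x ∈ W ∧ T A x = c • x := fun x => by
        simp [W', sub_eq_zero]
      have hne : W' ≠ ⊥ := by
        intro h
        have h1 : (w : n → ℂ) ∈ W' := (hmem _).mpr ⟨w.2, by
          have := Module.End.mem_eigenspace_iff.mp hw
          exact congrArg Subtype.val this⟩
        rw [h, Submodule.mem_bot] at h1
        exact hw0 (Subtype.ext h1)
      have hinv' : ∀ B, ∀ x ∈ W', T B x ∈ W' := by
        intro B x hx
        obtain ⟨h1, h2⟩ := (hmem x).mp hx
        refine (hmem _).mpr ⟨hWinv B x h1, ?_⟩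
        rw [← map_smul, ← h2]
        simp only [hT, Matrix.mulVec_mulVec, hcomm A A.2 B B.2]
      have heq : W' = W := by
        by_contra hne'
        exact hmin _ ⟨W', hne, hinv', rfl⟩
          (hWk ▸ Submodule.finrank_lt_finrank_of_lt (lt_of_le_of_ne inf_le_left hne'))
      exact ⟨c, fun x hx => ((hmem x).mp (heq.ge hx)).2⟩
    choose lam hlam using hs
    obtain ⟨v, hv, hv0⟩ := Submodule.exists_mem_ne_zero_of_ne_bot hW
    exact ⟨lam, v, hv0, fun A => hlam A v hv⟩
  let E : Submodule ℂ (n → ℂ) :=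
    { carrier := {v | ∀ A, T A v = lam A • v}
      add_mem' := fun {x y} hx hy A => by rw [map_add, hx A, hy A, smul_add]
      zero_mem' := fun A => by rw [map_zero, smul_zero]
      smul_mem' := fun c x hx A => by rw [map_smul, hx A, smul_comm] }
  have hv₀E : v₀ ∈ E := hlam
  -- the eigenvalue system of a translate
  have htrans : ∀ g : G, ∀ A : 𝒯, ∃ μ : ℂ, ∀ v ∈ E, T A (ρ g v) = μ • ρ g v := by
    intro g A
    obtain ⟨c, B, hB⟩ := htwv g A
    exact ⟨c * lam B, fun v hv => by rw [hB, hv B, map_smul, smul_smul]⟩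
  choose μ hμ using htrans
  have hinvc : ∀ g : G, ∀ v, ρ g⁻¹ (ρ g v) = v := fun g v => by
    rw [← Module.End.mul_apply, ← map_mul, inv_mul_cancel, map_one, Module.End.one_apply]
  have hne : ∀ g, ρ g v₀ ≠ 0 := fun g h => hv₀ (by rw [← hinvc g v₀, h, map_zero])
  let S : Subgroup G :=
    { carrier := {g | ∀ v ∈ E, ρ g v ∈ E}
      one_mem' := fun v hv => by rw [map_one]; exact hv
      mul_mem' := fun {a b} ha hb v hv => by
        rw [map_mul, Module.End.mul_apply]; exact ha _ (hb v hv)
      inv_mem' := fun {a} ha => by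
        have hp : ∀ k : ℕ, ∀ v ∈ E, ρ (a ^ k) v ∈ E := by
          intro k
          induction k with
          | zero => intro v hv; rw [pow_zero, map_one]; exact hv
          | succ k ih =>
            intro v hv
            rw [pow_succ, map_mul, Module.End.mul_apply]
            exact ih _ (ha v hv)
        have e : a⁻¹ = a ^ (orderOf a - 1) := by
          rw [inv_eq_iff_mul_eq_one, ← pow_succ', Nat.sub_add_cancel (orderOf_pos a), pow_orderOf_eq_one]
        intro v hv
        rw [e]
        exact hp _ v hv }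
  have hKS : K ≤ S := fun k hk v hv A => by
    show T A (ρ k v) = lam A • ρ k v
    rw [hT, hρdef, toRep_apply, Matrix.mulVec_mulVec, hK k hk A A.2, ← Matrix.mulVec_mulVec, ← hT,
      hv A, Matrix.mulVec_smul]
  have hEtop : E ≠ ⊤ := by
    intro h
    obtain ⟨A, hA, hne'⟩ := hns
    refine hne' (lam ⟨A, hA⟩) (Matrix.toLinAlgEquiv'.injective (LinearMap.ext fun v => ?_))
    rw [map_smul, map_one]
    exact (h ▸ Submodule.mem_top : v ∈ E) ⟨A, hA⟩
  have hStop : S ≠ ⊤ := by
    intro h
    let U : Subrepresentation ρ :=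
      ⟨E, fun g v hv => (h ▸ Subgroup.mem_top g : g ∈ S) v hv⟩
    rcases hirr.eq_bot_or_eq_top U with hU | hU
    · have h1 : E = ⊥ := congrArg Subrepresentation.toSubmodule hU
      exact hv₀ ((Submodule.mem_bot ℂ).mp (h1 ▸ hv₀E))
    · exact hEtop (congrArg Subrepresentation.toSubmodule hU)
  -- distinct cosets have distinct systems
  have hinj : Function.Injective fun q : G ⧸ S => μ q.out := by
    intro q q' h
    rw [← Quotient.out_eq q, ← Quotient.out_eq q']
    refine QuotientGroup.eq.mpr fun v hv A => ?_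
    set g := q.out with hg
    set g' := q'.out with hg'
    obtain ⟨c, B, hB⟩ := htwv g⁻¹ A
    have hval : c * μ g B = lam A := by
      have h1 := hB (ρ g v₀)
      rw [hinvc, hμ g B v₀ hv₀E, map_smul, hinvc, hlam, smul_smul] at h1
      exact (smul_left_injective ℂ hv₀ h1).symm
    show T A (ρ (g⁻¹ * g') v) = lam A • ρ (g⁻¹ * g') v
    rw [map_mul, Module.End.mul_apply, hB, hμ g' B v hv, map_smul, smul_smul]
    rw [← show μ g B = μ g' B from congrFun h B, hval]
  -- the dimension
  let η : Representation ℂ S E :=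
    { toFun := fun s => (ρ (s : G)).restrict fun v hv => s.2 v hv
      map_one' := by ext v; simp
      map_mul' := fun s t => by ext v; simp }
  let Φ : (G ⧸ S → E) →ₗ[ℂ] (n → ℂ) :=
    ∑ q : G ⧸ S, (ρ q.out).comp (E.subtype.comp (LinearMap.proj q))
  have hΦ : ∀ f, Φ f = ∑ q : G ⧸ S, ρ q.out (f q : n → ℂ) := fun f => by simp [Φ]
  have hΦinj : Function.Injective Φ := by
    refine LinearMap.ker_eq_bot.mp (LinearMap.ker_eq_bot'.mpr fun f hf => ?_)
    rw [hΦ] at hf
    funext q
    have h1 := eq_zero_of_joint_eigen T (fun q : G ⧸ S => μ q.out) hinj Finset.univ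
      (fun q => ρ q.out (f q : n → ℂ)) (fun i _ A => hμ i.out A _ (f i).2) hf q (Finset.mem_univ q)
    refine Subtype.ext ?_
    rw [← hinvc q.out (f q : n → ℂ), h1, map_zero]
    rfl
  have hdim : S.index * finrank ℂ E ≤ finrank ℂ (n → ℂ) := by
    have h1 := LinearMap.finrank_le_finrank_of_injective hΦinj
    rw [Module.finrank_pi_fintype, Finset.sum_const, Finset.card_univ, smul_eq_mul,
      ← Nat.card_eq_fintype_card, ← Subgroup.index_eq_card] at h1
    exact h1
  -- the induced character
  have hηc : IsCharacter S η.character := isCharacter_character η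
  refine ⟨S, η.character, hKS, hStop, hηc, ?_⟩
  haveI := Fintype.ofFinite S
  let ρS : Representation ℂ S (n → ℂ) := ρ.comp S.subtype
  let U : Subrepresentation ρS := ⟨E, fun s v hv => s.2 v hv⟩
  obtain ⟨U', hU'⟩ := exists_isCompl_subrep ρS U
  have hUη : U.toRepresentation.character = η.character := rfl
  have hsplit : (fun s : S => χ s) = η.character + U'.toRepresentation.character := by
    rw [← hUη, ← character_isCompl ρS U U' hU', ← hρχ]
    rfl
  have hχne : classInner (indFun S η.character) χ ≠ 0 := by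
    rw [classInner_indFun S _ (isClassFunction_of_isIrr hχ), hsplit, classInner_add_right]
    obtain ⟨a, ha⟩ := classInner_natCast hηc hηc
    obtain ⟨b, hb⟩ := classInner_natCast hηc (isCharacter_character U'.toRepresentation)
    rw [ha, hb, ← Nat.cast_add, Nat.cast_ne_zero]
    have : a ≠ 0 := by
      intro h0
      rw [h0, Nat.cast_zero] at ha
      have h1 := congrFun (eq_zero_of_classInner_self η.character ha) 1
      rw [Representation.char_one, Pi.zero_apply, Nat.cast_eq_zero] at h1
      exact hv₀ ((Submodule.mem_bot ℂ).mp (Submodule.finrank_eq_zero.mp h1 ▸ hv₀E))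
    omega
  have hind := isCharacter_indFun S hηc
  obtain ⟨e, he⟩ := isCharacter_eq_sum hind
  let x : IrrCharacter G := ⟨χ, hχ⟩
  have hex : e x ≠ 0 := by
    intro h0
    apply hχne
    rw [he, classInner_sum_left, Finset.sum_eq_zero]
    intro y _
    by_cases hyx : y = x
    · subst hyx; rw [h0, Nat.cast_zero, zero_smul, classInner_zero_left]
    · rw [classInner_smul_left, show χ = (x : G → ℂ) from rfl, classInner_irrCharacter, if_neg hyx, mul_zero]
  have hdeg : ∑ y : IrrCharacter G, e y * charDegree (y : G → ℂ) ≤ charDegree χ := by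
    have h1 := congrFun he 1
    rw [indFun_one, Representation.char_one, Finset.sum_apply, Finset.sum_congr rfl
      (g := fun y : IrrCharacter G => ((e y * charDegree (y : G → ℂ) : ℕ) : ℂ)) fun y _ => by
        rw [Pi.smul_apply, smul_eq_mul, apply_one_eq_charDegree (isCharacter_of_isIrr y.2),
          Nat.cast_mul], ← Nat.cast_mul, ← Nat.cast_sum, Nat.cast_inj] at h1
    rw [← h1]
    refine hdim.trans (le_of_eq ?_)
    have h2 := apply_one_eq_charDegree (isCharacter_of_isIrr hχ)
    rw [← hρχ, Representation.char_one, Nat.cast_inj] at h2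
    rw [h2, hρχ]
  rw [← Finset.add_sum_erase _ _ (Finset.mem_univ x)] at hdeg
  have hxle : charDegree χ ≤ e x * charDegree χ := Nat.le_mul_of_pos_left _ (Nat.pos_of_ne_zero hex)
  have he1 : e x = 1 := by
    have h3 : e x * charDegree χ ≤ 1 * charDegree χ := by
      rw [one_mul]; exact le_trans (Nat.le_add_right _ _) hdeg
    have := Nat.le_of_mul_le_mul_right h3 (charDegree_pos hχ)
    omega
  have hrest : ∀ y ∈ Finset.univ.erase x, e y = 0 := by
    intro y hy
    have h3 : ∑ y ∈ Finset.univ.erase x, e y * charDegree (y : G → ℂ) = 0 := by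
      rw [he1, one_mul] at hdeg
      exact Nat.eq_zero_of_le_zero (Nat.le_of_add_le_add_left (a := charDegree χ)
        (hdeg.trans (Nat.add_zero _).ge))
    exact (mul_eq_zero.mp (Finset.sum_eq_zero_iff.mp h3 y hy)).resolve_right (charDegree_pos y.2).ne'
  rw [he, ← Finset.add_sum_erase _ _ (Finset.mem_univ x), he1, Nat.cast_one, one_smul,
    Finset.sum_eq_zero fun y hy => by rw [hrest y hy, Nat.cast_zero, zero_smul], add_zero]

end Cfsg.Agent.Lib.CharClifford
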