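import Cfsg.Agent.Lib.CharClifford.CyclicTI
import Cfsg.Agent.Lib.Dade.TI
import Cfsg.Agent.Lib.Char.Induced
import Cfsg.Prelude.Def_OddOrderChar
import Cfsg.Prelude.Def_OddOrderLocal
import Mathlib.Tactic

/-! The grid of linear characters of a self-normalizing cyclic pair. -/

set_option autoImplicit false

namespace Cfsg.Agent.Lib.CharClifford

open Cfsg Cfsg.Agent.Lib.Char Cfsg.Agent.Lib.Dade
open scoped ComplexConjugate

variable {G : Type*} [Group G] {W₁ W₂ : Subgroup G}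

/-- The linear characters trivial on the second factor. -/
def leftHoms (W₁ W₂ : Subgroup G) : Subgroup (↥(W₁ ⊔ W₂) →* ℂˣ) where
  carrier := {φ | ∀ w : ↥(W₁ ⊔ W₂), (w : G) ∈ W₂ → φ w = 1}
  one_mem' := fun _ _ => rfl
  mul_mem' := fun ha hb w hw => by rw [MonoidHom.mul_apply, ha w hw, hb w hw, one_mul]
  inv_mem' := fun ha w hw => by rw [MonoidHom.inv_apply, ha w hw, inv_one]

/-- The linear characters trivial on the first factor. -/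
def rightHoms (W₁ W₂ : Subgroup G) : Subgroup (↥(W₁ ⊔ W₂) →* ℂˣ) where
  carrier := {φ | ∀ w : ↥(W₁ ⊔ W₂), (w : G) ∈ W₁ → φ w = 1}
  one_mem' := fun _ _ => rfl
  mul_mem' := fun ha hb w hw => by rw [MonoidHom.mul_apply, ha w hw, hb w hw, one_mul]
  inv_mem' := fun ha w hw => by rw [MonoidHom.inv_apply, ha w hw, inv_one]

/-- `(φ, ψ) ↦ φ ψ`. -/
noncomputable def gridEquiv (hdisj : W₁ ⊓ W₂ = ⊥) (hcomm : ∀ a ∈ W₁, ∀ b ∈ W₂, a * b = b * a) :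
    leftHoms W₁ W₂ × rightHoms W₁ W₂ ≃ (↥(W₁ ⊔ W₂) →* ℂˣ) :=
  Equiv.ofBijective (fun p => p.1.1 * p.2.1) ⟨fun p q h => by
      obtain ⟨h1, h2⟩ := hom_split_unique hcomm p.1.2 q.1.2 p.2.2 q.2.2 h
      exact Prod.ext (Subtype.ext h1) (Subtype.ext h2),
    fun ω => by
      obtain ⟨φ, ψ, hφ, hψ, h⟩ := exists_hom_split hdisj hcomm ω
      exact ⟨(⟨φ, hφ⟩, ⟨ψ, hψ⟩), h.symm⟩⟩

theorem gridEquiv_apply (hdisj : W₁ ⊓ W₂ = ⊥) (hcomm : ∀ a ∈ W₁, ∀ b ∈ W₂, a * b = b * a)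
    (φ : leftHoms W₁ W₂) (ψ : rightHoms W₁ W₂) :
    gridEquiv hdisj hcomm (φ, ψ) = φ.1 * ψ.1 := rfl

variable (hW : IsSelfNormalizingCyclic W₁ W₂)
include hW

theorem mul_comm_W (a b : ↥(W₁ ⊔ W₂)) : a * b = b * a := by
  obtain ⟨c, hc⟩ := hW.2.2.2.2.1.exists_generator
  obtain ⟨i, rfl⟩ := Subgroup.mem_zpowers_iff.mp (hc a)
  obtain ⟨j, rfl⟩ := Subgroup.mem_zpowers_iff.mp (hc b)
  exact zpow_mul_comm c i j

theorem isClassFunction_W (f : ↥(W₁ ⊔ W₂) → ℂ) : IsClassFunction ↥(W₁ ⊔ W₂) f := fun g h => by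
  rw [mul_comm_W hW h g, mul_inv_cancel_right]

theorem card_W : Nat.card ↥(W₁ ⊔ W₂) = Nat.card W₁ * Nat.card W₂ := by
  obtain ⟨-, -, hdisj, hcomm, -, -⟩ := hW
  rw [← Nat.card_prod]
  refine (Nat.card_congr (Equiv.ofBijective
    (fun p : W₁ × W₂ => (⟨(p.1 : G) * p.2, Subgroup.mul_mem_sup p.1.2 p.2.2⟩ : ↥(W₁ ⊔ W₂)))
    ⟨fun p q h => ?_, fun w => ?_⟩)).symm
  · obtain ⟨h1, h2⟩ := mul_injective hdisj p.1.2 q.1.2 p.2.2 q.2.2 (congrArg Subtype.val h)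
    exact Prod.ext (Subtype.ext h1) (Subtype.ext h2)
  · obtain ⟨a, ha, b, hb, hab⟩ := exists_mul_of_mem_sup hcomm w.2
    exact ⟨(⟨a, ha⟩, ⟨b, hb⟩), Subtype.ext hab⟩

variable [Finite G]

theorem card_homs : Nat.card (↥(W₁ ⊔ W₂) →* ℂˣ) = Nat.card ↥(W₁ ⊔ W₂) := by
  letI : CommGroup ↥(W₁ ⊔ W₂) :=
    { (inferInstance : Group ↥(W₁ ⊔ W₂)) with mul_comm := mul_comm_W hW }
  exact CommGroup.card_monoidHom_of_hasEnoughRootsOfUnity ↥(W₁ ⊔ W₂) ℂ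

theorem finite_homs : Finite (↥(W₁ ⊔ W₂) →* ℂˣ) :=
  Nat.finite_of_card_ne_zero (by rw [card_homs hW]; exact Nat.card_pos.ne')

theorem card_leftHoms : Nat.card (leftHoms W₁ W₂) = Nat.card W₁ := by
  obtain ⟨-, -, hdisj, hcomm, hcyc, -⟩ := id hW
  have hc : IsCyclic W₁ := isCyclic_of_injective (Subgroup.inclusion (le_sup_left : W₁ ≤ W₁ ⊔ W₂))
    (Subgroup.inclusion_injective _)
  letI : CommGroup W₁ :=
    { (inferInstance : Group W₁) with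
      mul_comm := fun a b => by
        obtain ⟨c, hc'⟩ := hc.exists_generator
        obtain ⟨i, rfl⟩ := Subgroup.mem_zpowers_iff.mp (hc' a)
        obtain ⟨j, rfl⟩ := Subgroup.mem_zpowers_iff.mp (hc' b)
        exact zpow_mul_comm c i j }
  let p : ↥(W₁ ⊔ W₂) →* W₁ := ((W₁ ⊔ W₂).subtype.comp (projLeft hdisj hcomm)).codRestrict W₁
    fun w => (projLeft_spec hdisj hcomm w).1
  let i : W₁ →* ↥(W₁ ⊔ W₂) := Subgroup.inclusion le_sup_left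
  rw [← CommGroup.card_monoidHom_of_hasEnoughRootsOfUnity W₁ ℂ]
  refine Nat.card_congr
    { toFun := fun φ => φ.1.comp i
      invFun := fun l => ⟨l.comp p, fun w hw => ?_⟩
      left_inv := fun φ => ?_
      right_inv := fun l => ?_ }
  · rw [MonoidHom.comp_apply, show p w = 1 from
      Subtype.ext (congrArg Subtype.val (projLeft_of_right hdisj hcomm hw) : _), map_one]
  · refine Subtype.ext (hom_ext_sup hcomm (fun w hw => ?_) fun w hw => ?_)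
    · show φ.1 (i (p w)) = φ.1 w
      rw [show i (p w) = w from
        Subtype.ext (congrArg Subtype.val (projLeft_of_left hdisj hcomm hw) : _)]
    · show φ.1 (i (p w)) = φ.1 w
      rw [show i (p w) = 1 from
        Subtype.ext (congrArg Subtype.val (projLeft_of_right hdisj hcomm hw) : _), map_one, φ.2 w hw]
  · refine MonoidHom.ext fun a => ?_
    show l (p (i a)) = l a
    rw [show p (i a) = a from
      Subtype.ext (congrArg Subtype.val (projLeft_of_left hdisj hcomm (w := i a) a.2) : _)]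

theorem card_rightHoms : Nat.card (rightHoms W₁ W₂) = Nat.card W₂ := by
  have h := Nat.card_congr (gridEquiv hW.2.2.1 hW.2.2.2.1)
  rw [Nat.card_prod, card_homs hW, card_W hW, card_leftHoms hW] at h
  exact Nat.eq_of_mul_eq_mul_left Nat.card_pos h

theorem coprime_cards : Nat.Coprime (Nat.card W₁) (Nat.card W₂) := by
  obtain ⟨-, -, hdisj, -, hcyc, -⟩ := hW
  refine Nat.coprime_of_dvd fun p hp h1 h2 => ?_
  have := Fact.mk hp
  obtain ⟨a, ha⟩ := exists_prime_orderOf_dvd_card' p h1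
  obtain ⟨b, hb⟩ := exists_prime_orderOf_dvd_card' p h2
  rw [← Subgroup.orderOf_coe] at ha hb
  have hle1 : Subgroup.zpowers (a : G) ≤ W₁ := Subgroup.zpowers_le.mpr a.2
  have hle2 : Subgroup.zpowers (b : G) ≤ W₂ := Subgroup.zpowers_le.mpr b.2
  have e : Subgroup.zpowers (a : G) = Subgroup.zpowers (b : G) :=
    eq_of_card_eq_of_cyclic hcyc (hle1.trans le_sup_left) (hle2.trans le_sup_right)
      (by rw [Nat.card_zpowers, Nat.card_zpowers, ha, hb])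
  have hm : (a : G) ∈ W₁ ⊓ W₂ := ⟨a.2, hle2 (e ▸ Subgroup.mem_zpowers _)⟩
  rw [hdisj, Subgroup.mem_bot] at hm
  rw [hm, orderOf_one] at ha
  exact hp.one_lt.ne ha

theorem three_le (hodd : Odd (Nat.card ↥(W₁ ⊔ W₂))) :
    3 ≤ Nat.card W₁ ∧ 3 ≤ Nat.card W₂ ∧ Odd (Nat.card W₁) ∧ Odd (Nat.card W₂) := by
  have h1 : Nat.card W₁ ≠ 1 := fun h => hW.1 (Subgroup.card_eq_one.mp h)
  have h2 : Nat.card W₂ ≠ 1 := fun h => hW.2.1 (Subgroup.card_eq_one.mp h)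
  rw [card_W hW, Nat.odd_mul] at hodd
  obtain ⟨⟨k, hk⟩, ⟨l, hl⟩⟩ := hodd
  exact ⟨by omega, by omega, ⟨k, hk⟩, ⟨l, hl⟩⟩

variable [Fintype G]

/-- A function on `W` orthogonal to every `(1 - φ)(1 - ψ)` vanishes outside both factors. -/
theorem eq_zero_of_orth_tiFun [Fintype ↥(W₁ ⊔ W₂)] (θ : ↥(W₁ ⊔ W₂) → ℂ)
    (hzero : ∀ (φ : leftHoms W₁ W₂) (ψ : rightHoms W₁ W₂), φ.1 ≠ 1 → ψ.1 ≠ 1 →
      ∑ v : ↥(W₁ ⊔ W₂), θ v * conj (tiFun φ.1 ψ.1 v) = 0)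
    {w : ↥(W₁ ⊔ W₂)} (hw₁ : (w : G) ∉ W₁) (hw₂ : (w : G) ∉ W₂) : θ w = 0 := by
  classical
  obtain ⟨-, -, hdisj, hcomm, -, -⟩ := id hW
  letI : CommGroup ↥(W₁ ⊔ W₂) :=
    { (inferInstance : Group ↥(W₁ ⊔ W₂)) with mul_comm := mul_comm_W hW }
  have := finite_homs hW
  have := Fintype.ofFinite (leftHoms W₁ W₂)
  have := Fintype.ofFinite (rightHoms W₁ W₂)
  have horthD : ∀ (D : Subgroup (↥(W₁ ⊔ W₂) →* ℂˣ)) [Fintype D] (u : ↥(W₁ ⊔ W₂)),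
      (∃ φ ∈ D, φ u ≠ 1) → ∑ φ : D, ((φ : ↥(W₁ ⊔ W₂) →* ℂˣ) u : ℂ) = 0 := by
    intro D _ u hu
    let ev : D →* ℂ :=
      { toFun := fun φ => ((φ : ↥(W₁ ⊔ W₂) →* ℂˣ) u : ℂ)
        map_one' := by simp
        map_mul' := fun a b => by simp }
    show ∑ φ : D, ev φ = 0
    rw [sum_hom_units ev, if_neg fun h => ?_, Nat.cast_zero]
    obtain ⟨φ, hφD, hφ⟩ := hu
    exact hφ (Units.ext (DFunLike.congr_fun h ⟨φ, hφD⟩))
  have hsep : ∀ u : ↥(W₁ ⊔ W₂), ((u : G) ∉ W₂ → ∃ φ ∈ leftHoms W₁ W₂, φ u ≠ 1) ∧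
      ((u : G) ∉ W₁ → ∃ φ ∈ rightHoms W₁ W₂, φ u ≠ 1) := by
    intro u
    set p := projLeft hdisj hcomm u with hp
    obtain ⟨hp1, hp2⟩ := projLeft_spec hdisj hcomm u
    constructor <;> intro hu
    · obtain ⟨ω, hω⟩ := CommGroup.exists_apply_ne_one_of_hasEnoughRootsOfUnity ↥(W₁ ⊔ W₂) ℂ
        (a := p) (fun h => hu (by rwa [← hp, h, inv_one, one_mul] at hp2))
      exact ⟨ω.comp (projLeft hdisj hcomm), fun w hw => by
        rw [MonoidHom.comp_apply, projLeft_of_right hdisj hcomm hw, map_one], hω⟩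
    · obtain ⟨ω, hω⟩ := CommGroup.exists_apply_ne_one_of_hasEnoughRootsOfUnity ↥(W₁ ⊔ W₂) ℂ
        (a := p⁻¹ * u) (fun h => hu (by rwa [← inv_mul_eq_one.mp h]))
      refine ⟨ω * (ω.comp (projLeft hdisj hcomm))⁻¹, fun w hw => by
        rw [MonoidHom.mul_apply, MonoidHom.inv_apply, MonoidHom.comp_apply,
          projLeft_of_left hdisj hcomm hw, mul_inv_cancel], ?_⟩
      rw [MonoidHom.mul_apply, MonoidHom.inv_apply, MonoidHom.comp_apply, mul_comm, ← map_inv, ← map_mul]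
      exact hω
  have hzero' : ∀ (φ : leftHoms W₁ W₂) (ψ : rightHoms W₁ W₂),
      ∑ v : ↥(W₁ ⊔ W₂), θ v * conj (tiFun φ.1 ψ.1 v) = 0 := by
    intro φ ψ
    rcases eq_or_ne φ.1 1 with h1 | h1
    · simp [h1, tiFun]
    rcases eq_or_ne ψ.1 1 with h2 | h2
    · simp [h2, tiFun]
    exact hzero φ ψ h1 h2
  have hdbl : ∑ φ : leftHoms W₁ W₂, ∑ ψ : rightHoms W₁ W₂, (φ.1 w : ℂ) * (ψ.1 w : ℂ) *
      ∑ v : ↥(W₁ ⊔ W₂), θ v * conj (tiFun φ.1 ψ.1 v) = 0 :=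
    Finset.sum_eq_zero fun φ _ => Finset.sum_eq_zero fun ψ _ => by rw [hzero', mul_zero]
  have hswap : ∑ φ : leftHoms W₁ W₂, ∑ ψ : rightHoms W₁ W₂, (φ.1 w : ℂ) * (ψ.1 w : ℂ) *
      ∑ v : ↥(W₁ ⊔ W₂), θ v * conj (tiFun φ.1 ψ.1 v) =
      ∑ v : ↥(W₁ ⊔ W₂), θ v * ((∑ φ : leftHoms W₁ W₂, (φ.1 (w * v⁻¹) : ℂ)) *
        ∑ ψ : rightHoms W₁ W₂, (ψ.1 (w * v⁻¹) : ℂ)) := by
    have hA : ∀ v : ↥(W₁ ⊔ W₂), (∑ φ : leftHoms W₁ W₂, (φ.1 (w * v⁻¹) : ℂ)) *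
        ∑ ψ : rightHoms W₁ W₂, (ψ.1 (w * v⁻¹) : ℂ) =
        (∑ φ : leftHoms W₁ W₂, ((φ.1 w : ℂ) - (φ.1 (w * v⁻¹) : ℂ))) *
          ∑ ψ : rightHoms W₁ W₂, ((ψ.1 w : ℂ) - (ψ.1 (w * v⁻¹) : ℂ)) := by
      intro v
      simp only [Finset.sum_sub_distrib, horthD (leftHoms W₁ W₂) w ((hsep w).1 hw₂),
        horthD (rightHoms W₁ W₂) w ((hsep w).2 hw₁)]
      ring
    simp only [hA, Finset.mul_sum, Finset.sum_mul]
    rw [Finset.sum_comm]
    conv_rhs => rw [Finset.sum_comm]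
    refine Finset.sum_congr rfl fun ψ _ => ?_
    rw [Finset.sum_comm]
    refine Finset.sum_congr rfl fun v _ => Finset.sum_congr rfl fun φ _ => ?_
    simp only [tiFun, map_add, map_sub, map_mul, map_one, map_inv, Units.val_mul, hom_conj]
    ring
  rw [hswap, Finset.sum_eq_single w ?_ (fun h => absurd (Finset.mem_univ w) h)] at hdbl
  · simpa [mul_inv_cancel, Fintype.card_ne_zero] using hdbl
  · intro v _ hv
    have hu : ((w * v⁻¹ : ↥(W₁ ⊔ W₂)) : G) ∉ W₂ ∨ ((w * v⁻¹ : ↥(W₁ ⊔ W₂)) : G) ∉ W₁ := by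
      by_contra hc
      simp only [not_or, not_not] at hc
      have h3 : ((w * v⁻¹ : ↥(W₁ ⊔ W₂)) : G) ∈ W₁ ⊓ W₂ := ⟨hc.2, hc.1⟩
      rw [hdisj, Subgroup.mem_bot] at h3
      exact hv (mul_inv_eq_one.mp (Subtype.ext h3)).symm
    rcases hu with h | h
    · rw [horthD (leftHoms W₁ W₂) _ ((hsep _).1 h), zero_mul, mul_zero]
    · rw [horthD (rightHoms W₁ W₂) _ ((hsep _).2 h), mul_zero, mul_zero]

omit [Finite G] hW in
/-- The rectangle relation for a class function vanishing outside both factors. -/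
theorem classInner_family_mul {χ : (↥(W₁ ⊔ W₂) →* ℂˣ) → (G → ℂ)} (hχ : IsCyclicTIFamily W₁ W₂ χ)
    {θ : G → ℂ} (hθ : IsClassFunction G θ)
    (hθV : ∀ w : ↥(W₁ ⊔ W₂), (w : G) ∉ W₁ → (w : G) ∉ W₂ → θ w = 0)
    (a : leftHoms W₁ W₂) (b : rightHoms W₁ W₂) :
    classInner θ (χ (a.1 * b.1)) =
      classInner θ (χ a.1) + classInner θ (χ b.1) - classInner θ (χ 1) := by
  classical
  have := Fintype.ofFinite ↥(W₁ ⊔ W₂)
  obtain ⟨a, ha⟩ := a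
  obtain ⟨b, hb⟩ := b
  dsimp only
  rcases eq_or_ne a 1 with rfl | ha1
  · rw [show (1 : ↥(W₁ ⊔ W₂) →* ℂˣ) * b = b from MonoidHom.ext fun w => by simp]; ring
  rcases eq_or_ne b 1 with rfl | hb1
  · rw [show a * (1 : ↥(W₁ ⊔ W₂) →* ℂˣ) = a from MonoidHom.ext fun w => by simp]; ring
  have h0 : classInner θ (indFun (W₁ ⊔ W₂) (tiFun a b)) = 0 := by
    rw [classInner_indFun_right _ _ hθ, classInner, Finset.sum_eq_zero, mul_zero]
    intro w _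
    by_cases hw : (w : G) ∈ W₁ ∨ (w : G) ∈ W₂
    · rw [tiFun_eq_zero ha hb hw, map_zero, mul_zero]
    · rw [not_or] at hw
      rw [hθV w hw.1 hw.2, zero_mul]
  have h1 : indFun (W₁ ⊔ W₂) (tiFun a b) = χ 1 - χ a - χ b + χ (a * b) := by
    rw [hχ.map_one]
    exact hχ.induced_eq a b ha1 hb1 ha hb
  rw [h1, classInner_add_right, classInner_sub_right, classInner_sub_right] at h0
  linear_combination h0

end Cfsg.Agent.Lib.CharClifford
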