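import Cfsg.Agent.Lib.Char.Induced
import Cfsg.Agent.Lib.Char.Degree
import Cfsg.Agent.Lib.CharKernel
import Cfsg.Agent.Lib.CharClifford.Linear
import Cfsg.Agent.Lib.CharClifford.Basic
import Mathlib.GroupTheory.GroupAction.Quotient
import Mathlib.GroupTheory.IndexNormal
import Mathlib.Tactic

/-!
A primitive faithful representation of degree two: the group modulo its centre acts on the
eigenlines, and counting fixed lines leaves the orders 12, 24 and 60.
-/

set_option autoImplicit false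

namespace Cfsg.Agent.Lib.CharClifford

open Cfsg Cfsg.Agent.Lib.Char

/-- Three orbits with stabilisers of orders `a ≤ b ≤ c`. -/
theorem three_orbits_sorted {N s₁ s₂ s₃ a b c : ℕ} (h₁ : s₁ * a = N) (h₂ : s₂ * b = N)
    (h₃ : s₃ * c = N) (ha : 2 ≤ a) (hab : a ≤ b) (hbc : b ≤ c) (h3 : 3 ≤ s₃)
    (hs : s₁ + s₂ + s₃ = N + 2) : N = 12 ∨ N = 24 ∨ N = 60 := by
  have e1 : 2 * s₁ ≤ N := by nlinarith
  rcases Nat.lt_or_ge a 3 with ha3 | ha3
  swap
  · have : 3 * s₁ ≤ N := by nlinarith
    have : 3 * s₂ ≤ N := by nlinarith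
    have : 3 * s₃ ≤ N := by nlinarith
    omega
  obtain rfl : a = 2 := by omega
  rcases Nat.lt_or_ge b 4 with hb | hb
  swap
  · have : 4 * s₂ ≤ N := by nlinarith
    have : 4 * s₃ ≤ N := by nlinarith
    omega
  interval_cases b
  · have : s₃ = 2 := by omega
    omega
  · rcases Nat.lt_or_ge c 6 with hc | hc
    · interval_cases c <;> omega
    · have : 6 * s₃ ≤ N := by nlinarith
      omega

/-- The numerical consequence of counting fixed points. -/
theorem orbit_numbers {ι : Type*} [Fintype ι] (N : ℕ) (s m : ι → ℕ) (hN : 2 ≤ N)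
    (hsm : ∀ i, s i * m i = N) (hm : ∀ i, 2 ≤ m i) (h3 : ∀ i, 3 ≤ s i)
    (hcount : 2 * (N - 1) + ∑ i, s i = Fintype.card ι * N) : N = 12 ∨ N = 24 ∨ N = 60 := by
  have hhalf : ∑ i, 2 * s i ≤ Fintype.card ι * N := by
    refine (Finset.sum_le_sum (g := fun _ => N) fun i _ => ?_).trans_eq (by simp)
    rw [← hsm i, mul_comm 2]
    exact Nat.mul_le_mul_left _ (hm i)
  rw [← Finset.mul_sum] at hhalf
  have hlow : Fintype.card ι * 3 ≤ ∑ i, s i := by
    refine le_of_eq_of_le (by simp) (Finset.sum_le_sum (f := fun _ => 3) fun i _ => h3 i)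
  have hcard : Fintype.card ι = 3 := by
    rcases Nat.lt_or_ge (Fintype.card ι) 4 with h | h
    · interval_cases hk : Fintype.card ι
      · simp only [Nat.zero_mul] at hcount; omega
      · omega
      · omega
      · rfl
    · have : 4 * N ≤ Fintype.card ι * N := Nat.mul_le_mul_right N h
      omega
  obtain ⟨e⟩ : Nonempty (ι ≃ Fin 3) := ⟨Fintype.equivFinOfCardEq hcard⟩
  rw [hcard, ← e.symm.sum_comp, Fin.sum_univ_three] at hcount
  set i₀ := e.symm 0
  set i₁ := e.symm 1
  set i₂ := e.symm 2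
  have hs : s i₀ + s i₁ + s i₂ = N + 2 := by omega
  rcases le_total (m i₀) (m i₁) with h01 | h01 <;> rcases le_total (m i₁) (m i₂) with h12 | h12 <;>
    rcases le_total (m i₀) (m i₂) with h02 | h02
  all_goals first
    | exact three_orbits_sorted (hsm i₀) (hsm i₁) (hsm i₂) (hm i₀) h01 h12 (h3 i₂) hs
    | exact three_orbits_sorted (hsm i₀) (hsm i₂) (hsm i₁) (hm i₀) h02 h12 (h3 i₁) (by omega)
    | exact three_orbits_sorted (hsm i₁) (hsm i₀) (hsm i₂) (hm i₁) h01 h02 (h3 i₂) (by omega)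
    | exact three_orbits_sorted (hsm i₁) (hsm i₂) (hsm i₀) (hm i₁) h12 h02 (h3 i₀) (by omega)
    | exact three_orbits_sorted (hsm i₂) (hsm i₀) (hsm i₁) (hm i₂) h02 h01 (h3 i₁) (by omega)
    | exact three_orbits_sorted (hsm i₂) (hsm i₁) (hsm i₀) (hm i₂) h12 h01 (h3 i₀) (by omega)

section

universe u

variable {G : Type u} [Group G] [Fintype G] (ρ : Representation ℂ G (Fin 2 → ℂ))

local notation "V₂" => (Fin 2 → ℂ)

/-- The lines spanned by eigenvectors of non-central elements. -/
def IsEigenLine (W : Submodule ℂ V₂) : Prop :=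
  ∃ g ∉ Subgroup.center G, ∃ v : V₂, v ≠ 0 ∧ (∃ c : ℂ, ρ g v = c • v) ∧ W = ℂ ∙ v

theorem inv_apply_apply (g : G) (v : V₂) : ρ g⁻¹ (ρ g v) = v := by
  rw [← Module.End.mul_apply, ← map_mul, inv_mul_cancel, map_one, Module.End.one_apply]

theorem injective_apply (g : G) : Function.Injective (ρ g) :=
  Function.LeftInverse.injective (inv_apply_apply ρ g)

theorem isEigenLine_map (h : G) {W : Submodule ℂ V₂} (hW : IsEigenLine ρ W) :
    IsEigenLine ρ (W.map (ρ h)) := by
  obtain ⟨g, hg, v, hv, ⟨c, hc⟩, rfl⟩ := hW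
  refine ⟨h * g * h⁻¹, fun hm => hg ?_, ρ h v, fun e => hv (injective_apply ρ h (by rw [e, map_zero])),
    ⟨c, ?_⟩, by rw [Submodule.map_span, Set.image_singleton]⟩
  · simpa [mul_assoc] using (inferInstance : (Subgroup.center G).Normal).conj_mem _ hm h⁻¹
  · rw [map_mul, map_mul, Module.End.mul_apply, Module.End.mul_apply, inv_apply_apply, hc, map_smul]

/-- The eigenlines form a `G`-set. -/
@[reducible]
def lineAction : MulAction G {W : Submodule ℂ V₂ // IsEigenLine ρ W} where
  smul g W := ⟨W.1.map (ρ g), isEigenLine_map ρ g W.2⟩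
  one_smul W := Subtype.ext (show W.1.map (ρ 1) = W.1 by
    rw [map_one]; exact Submodule.map_id _)
  mul_smul g h W := Subtype.ext (show W.1.map (ρ (g * h)) = (W.1.map (ρ h)).map (ρ g) by
    rw [map_mul, Module.End.mul_eq_comp, Submodule.map_comp])

variable [ρ.IsIrreducible] (hinj : Function.Injective ρ)

/-- No line is invariant. -/
theorem not_invariant {v : V₂} (hv : v ≠ 0) : ∃ g, ρ g v ∉ ℂ ∙ v := by
  by_contra h
  push Not at h
  have hle : ∀ g : G, ∀ w ∈ ℂ ∙ v, ρ g w ∈ ℂ ∙ v := fun g w hw => by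
    obtain ⟨c, rfl⟩ := Submodule.mem_span_singleton.mp hw
    rw [map_smul]
    exact Submodule.smul_mem _ c (h g)
  let S : Subrepresentation ρ := ⟨ℂ ∙ v, fun g w hw => hle g w hw⟩
  rcases IsSimpleOrder.eq_bot_or_eq_top S with hS | hS
  · have := congrArg Subrepresentation.toSubmodule hS
    exact hv (Submodule.span_singleton_eq_bot.mp this)
  · have := congrArg Subrepresentation.toSubmodule hS
    have h1 : Module.finrank ℂ (ℂ ∙ v) = 1 := finrank_span_singleton hv
    rw [show (ℂ ∙ v) = (⊤ : Submodule ℂ V₂) from this, finrank_top, Module.finrank_fin_fun] at h1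
    exact absurd h1 (by norm_num)

include hinj in
/-- A non-central element fixes exactly two lines. -/
theorem two_lines {g : G} (hg : g ∉ Subgroup.center G) :
    ∃ u w : V₂, u ≠ 0 ∧ w ≠ 0 ∧ ℂ ∙ u ≠ ℂ ∙ w ∧ (∃ c : ℂ, ρ g u = c • u) ∧ (∃ c : ℂ, ρ g w = c • w) ∧
      ∀ v : V₂, v ≠ 0 → (∃ c : ℂ, ρ g v = c • v) → ℂ ∙ v = ℂ ∙ u ∨ ℂ ∙ v = ℂ ∙ w := by
  obtain ⟨b₀, μ₀, -, hb₀, -⟩ := exists_eigenbasis ρ g
  let e : Fin (Module.finrank ℂ V₂) ≃ Fin 2 := finCongr (Module.finrank_fin_fun ℂ)
  let b := b₀.reindex e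
  let μ := μ₀ ∘ e.symm
  have hb : ∀ i, ρ g (b i) = μ i • b i := fun i => by
    simpa [b, μ, Module.Basis.reindex_apply] using hb₀ (e.symm i) 1
  have hne : μ 0 ≠ μ 1 := fun he => hg (Subgroup.mem_center_iff.mpr fun h => hinj (by
    have hs : ρ g = μ 0 • (1 : Module.End ℂ V₂) := b.ext fun i => by
      fin_cases i
      · simpa using hb 0
      · simpa [he] using hb 1
    rw [map_mul, map_mul, hs, smul_mul_assoc, mul_smul_comm, one_mul, mul_one]))
  refine ⟨b 0, b 1, b.ne_zero 0, b.ne_zero 1, fun he => ?_, ⟨_, hb 0⟩, ⟨_, hb 1⟩, fun v hv ⟨c, hc⟩ => ?_⟩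
  · obtain ⟨t, ht⟩ := Submodule.mem_span_singleton.mp (he ▸ Submodule.mem_span_singleton_self (b 0) :
      b 0 ∈ ℂ ∙ b 1)
    have := congrArg (fun x => b.repr x 0) ht
    simp at this
  · have hsum := b.sum_repr v
    rw [Fin.sum_univ_two] at hsum
    set x := b.repr v 0
    set y := b.repr v 1
    have h0 : x * μ 0 = c * x ∧ y * μ 1 = c * y := by
      have h1 : ρ g v = (x * μ 0) • b 0 + (y * μ 1) • b 1 := by
        conv_lhs => rw [← hsum]
        rw [map_add, map_smul, map_smul, hb, hb, smul_smul, smul_smul]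
      have h2 : c • v = (c * x) • b 0 + (c * y) • b 1 := by
        conv_lhs => rw [← hsum]
        rw [smul_add, smul_smul, smul_smul]
      rw [hc, h2] at h1
      have h3 := congrArg (fun z => b.repr z) h1
      refine ⟨?_, ?_⟩
      · have := DFunLike.congr_fun h3 0; simp at this; exact this.symm
      · have := DFunLike.congr_fun h3 1; simp at this; exact this.symm
    by_cases hx : x = 0
    · rw [hx, zero_smul, zero_add] at hsum
      right
      rw [← hsum, Submodule.span_singleton_smul_eq]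
      exact IsUnit.mk0 _ fun hy => hv (by rw [← hsum, hy, zero_smul])
    · have hc0 : c = μ 0 := mul_right_cancel₀ hx (by rw [← h0.1]; ring)
      have hy : y = 0 := by
        by_contra hy
        exact hne (hc0.symm.trans (mul_right_cancel₀ hy (by rw [← h0.2]; ring)))
      rw [hy, zero_smul, add_zero] at hsum
      left
      rw [← hsum, Submodule.span_singleton_smul_eq (IsUnit.mk0 _ hx)]

theorem map_span_eq_iff (g : G) {v : V₂} (hv : v ≠ 0) :
    (ℂ ∙ v).map (ρ g) = ℂ ∙ v ↔ ∃ c : ℂ, ρ g v = c • v := by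
  rw [Submodule.map_span, Set.image_singleton]
  constructor
  · intro h
    obtain ⟨c, hc⟩ := Submodule.mem_span_singleton.mp (h ▸ Submodule.mem_span_singleton_self (ρ g v) :
      ρ g v ∈ ℂ ∙ v)
    exact ⟨c, hc.symm⟩
  · rintro ⟨c, hc⟩
    rw [hc, Submodule.span_singleton_smul_eq]
    exact IsUnit.mk0 _ fun h => hv (injective_apply ρ g (by rw [hc, h, zero_smul, map_zero]))

include hinj in
/-- An orbit of two lines makes the character induced. -/
theorem induced_of_pair {v : V₂} (hv : v ≠ 0) {H : Subgroup G}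
    (hH : ∀ h, h ∈ H ↔ ρ h v ∈ ℂ ∙ v) (hidx : H.index = 2) :
    ∃ θ : H → ℂ, IsCharacter H θ ∧ ρ.character = indFun H θ := by
  classical
  have := hinj
  have := Fintype.ofFinite H
  haveI : H.Normal := Subgroup.normal_of_index_eq_two hidx
  obtain ⟨g₀, hg₀⟩ := not_invariant ρ hv
  have hg₀H : g₀ ∉ H := fun h => hg₀ ((hH g₀).mp h)
  set w := ρ g₀ v with hw
  have hli : LinearIndependent ℂ ![v, w] := by
    rw [LinearIndependent.pair_iff' hv]
    intro a ha
    exact hg₀ (Submodule.mem_span_singleton.mpr ⟨a, ha⟩)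
  let b : Module.Basis (Fin 2) ℂ V₂ := basisOfLinearIndependentOfCardEqFinrank hli (by simp)
  have hb0 : b 0 = v := by simp [b]
  have hb1 : b 1 = w := by simp [b]
  have hcoef : ∀ h : H, ∃ c : ℂ, ρ h v = c • v := fun h => by
    obtain ⟨c, hc⟩ := Submodule.mem_span_singleton.mp ((hH h).mp h.2)
    exact ⟨c, hc.symm⟩
  choose θ hθ using hcoef
  have hθmul : ∀ a c : H, θ (a * c) = θ a * θ c := fun a c => by
    refine smul_left_injective ℂ hv ?_
    show θ (a * c) • v = (θ a * θ c) • v
    rw [← hθ, Subgroup.coe_mul, map_mul, Module.End.mul_apply, hθ c, map_smul, hθ a, smul_smul,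
      mul_comm]
  have hθone : θ 1 = 1 := by
    refine smul_left_injective ℂ hv ?_
    show θ 1 • v = (1 : ℂ) • v
    rw [← hθ, Subgroup.coe_one, map_one, Module.End.one_apply, one_smul]
  let φ : H →* ℂˣ := MonoidHom.toHomUnits { toFun := θ, map_one' := hθone, map_mul' := hθmul }
  have hφ : ∀ h : H, (φ h : ℂ) = θ h := fun h => rfl
  refine ⟨θ, by simpa only [hφ] using isCharacter_of_hom φ, funext fun g => ?_⟩
  have htr : ρ.character g = b.repr (ρ g v) 0 + b.repr (ρ g w) 1 := by
    show LinearMap.trace ℂ V₂ (ρ g) = _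
    rw [LinearMap.trace_eq_matrix_trace ℂ b, Matrix.trace, Fin.sum_univ_two]
    simp [LinearMap.toMatrix_apply, hb0, hb1]
  have hother : ∀ x : G, x ∉ H → x⁻¹ * g₀ ∈ H := fun x hx => by
    rw [Subgroup.mul_mem_iff_of_index_two hidx]
    simp [hx, hg₀H]
  by_cases hg : g ∈ H
  · set g' : H := ⟨g₀⁻¹ * g * g₀, by simpa using (inferInstance : H.Normal).conj_mem g hg g₀⁻¹⟩
    have hv' : b.repr (ρ g v) 0 = θ ⟨g, hg⟩ := by
      rw [hθ ⟨g, hg⟩, map_smul, ← hb0, Module.Basis.repr_self]
      simp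
    have hw' : b.repr (ρ g w) 1 = θ g' := by
      have : ρ g w = θ g' • w := by
        rw [hw, ← Module.End.mul_apply, ← map_mul, show g * g₀ = g₀ * (g₀⁻¹ * g * g₀) by group,
          map_mul, Module.End.mul_apply, hθ g', map_smul]
      rw [this, map_smul, ← hb1, Module.Basis.repr_self]
      simp
    have hsum : ∑ x : G, extendByZero H θ (x⁻¹ * g * x) = (Nat.card H : ℂ) * (θ ⟨g, hg⟩ + θ g') := by
      rw [← Finset.sum_filter_add_sum_filter_not Finset.univ (fun x : G => x ∈ H),
        Finset.sum_congr rfl (g := fun _ => θ ⟨g, hg⟩) fun x hx => by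
          have hxH := (Finset.mem_filter.mp hx).2
          rw [extendByZero_mem _ _ (H.mul_mem (H.mul_mem (H.inv_mem hxH) hg) hxH),
            show (⟨x⁻¹ * g * x, _⟩ : H) = (⟨x, hxH⟩ : H)⁻¹ * ⟨g, hg⟩ * ⟨x, hxH⟩ from rfl, hθmul, hθmul,
            mul_right_comm, ← hθmul, inv_mul_cancel, hθone, one_mul],
        Finset.sum_congr rfl (s₁ := Finset.univ.filter fun x : G => ¬ x ∈ H) (g := fun _ => θ g')
          fun x hx => by
          have hxH := (Finset.mem_filter.mp hx).2
          have hk : g₀⁻¹ * x ∈ H := by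
            have := H.inv_mem (hother x hxH); simpa using this
          rw [extendByZero_mem _ _ (by simpa using (inferInstance : H.Normal).conj_mem g hg x⁻¹),
            show (⟨x⁻¹ * g * x, _⟩ : H) = (⟨g₀⁻¹ * x, hk⟩ : H)⁻¹ * g' * ⟨g₀⁻¹ * x, hk⟩ from
              Subtype.ext (by simp only [g', Subgroup.coe_mul, InvMemClass.coe_inv]; group), hθmul,
            hθmul, mul_right_comm, ← hθmul, inv_mul_cancel, hθone, one_mul],
        Finset.sum_const, Finset.sum_const, nsmul_eq_mul, nsmul_eq_mul]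
      have h1 : (Finset.univ.filter fun x : G => x ∈ H).card = Nat.card H := by
        rw [← Fintype.card_subtype, Nat.card_eq_fintype_card]
      have h2 : (Finset.univ.filter fun x : G => ¬ x ∈ H).card = Nat.card H := by
        have h3 := Finset.card_filter_add_card_filter_not (s := (Finset.univ : Finset G)) (fun x => x ∈ H)
        have h4 := H.index_mul_card
        rw [hidx, Nat.card_eq_fintype_card (α := G)] at h4
        rw [Finset.card_univ, h1] at h3
        omega
      rw [h1, h2]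
      ring
    show ρ.character g = (Nat.card H : ℂ)⁻¹ * _
    rw [hsum, htr, hv', hw', ← mul_assoc, inv_mul_cancel₀ (Nat.cast_ne_zero.mpr Nat.card_pos.ne'),
      one_mul]
  · have hz : ∀ x : G, extendByZero H θ (x⁻¹ * g * x) = 0 := fun x => extendByZero_not_mem _ _ fun h =>
      hg (by simpa [mul_assoc] using (inferInstance : H.Normal).conj_mem _ h x)
    show ρ.character g = (Nat.card H : ℂ)⁻¹ * _
    rw [Finset.sum_eq_zero fun x _ => hz x, mul_zero, htr]
    have hk : g₀⁻¹ * g ∈ H := by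
      have := H.inv_mem (hother g hg); simpa using this
    have hk' : g * g₀ ∈ H := (Subgroup.mul_mem_iff_of_index_two hidx).mpr (by simp [hg, hg₀H])
    have hv' : ρ g v = θ ⟨_, hk⟩ • w := by
      rw [hw, ← map_smul, ← hθ ⟨_, hk⟩, ← Module.End.mul_apply, ← map_mul, mul_inv_cancel_left]
    have hw' : ρ g w = θ ⟨_, hk'⟩ • v := by
      rw [hw, ← hθ ⟨_, hk'⟩, ← Module.End.mul_apply, ← map_mul]
    rw [hv', hw', map_smul, map_smul, ← hb0, ← hb1, Module.Basis.repr_self, Module.Basis.repr_self]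
    simp

include hinj in
/-- The index of the centre of a primitive linear group of degree two. -/
theorem center_index (hnab : ∃ g : G, g ∉ Subgroup.center G)
    (hprim : ∀ H : Subgroup G, H ≠ ⊤ → ∀ θ : H → ℂ, IsCharacter H θ → ρ.character ≠ indFun H θ) :
    (Subgroup.center G).index = 12 ∨ (Subgroup.center G).index = 24 ∨ (Subgroup.center G).index = 60 := by
  classical
  set Z := Subgroup.center G with hZ
  letI := lineAction ρ
  let X := {W : Submodule ℂ V₂ // IsEigenLine ρ W}
  haveI : Finite X := by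
    choose u w hu hw hne hcu hcw hall using fun g : {g : G // g ∉ Z} => two_lines ρ hinj g.2
    refine Set.Finite.to_subtype ((Set.finite_range fun p : {g : G // g ∉ Z} × Bool =>
      if p.2 then (ℂ ∙ u p.1) else (ℂ ∙ w p.1)).subset ?_)
    rintro W ⟨g, hg, v, hv, hc, rfl⟩
    rcases hall ⟨g, hg⟩ v hv hc with h | h
    · exact ⟨(⟨g, hg⟩, true), h.symm⟩
    · exact ⟨(⟨g, hg⟩, false), h.symm⟩
  letI : Fintype X := Fintype.ofFinite X
  have hsmul : ∀ (g : G) (W : X), ((g • W : X) : Submodule ℂ V₂) = (W : Submodule ℂ V₂).map (ρ g) :=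
    fun _ _ => rfl
  have hfix : ∀ (g : G) (W : X) (v : V₂), v ≠ 0 → (W : Submodule ℂ V₂) = ℂ ∙ v →
      (g • W = W ↔ ∃ c : ℂ, ρ g v = c • v) := fun g W v hv hW => by
    rw [← map_span_eq_iff ρ g hv, ← hW, Subtype.ext_iff, hsmul]
  have hline : ∀ W : X, ∃ g, g ∉ Z ∧ ∃ v : V₂, v ≠ 0 ∧ (W : Submodule ℂ V₂) = ℂ ∙ v ∧ g • W = W :=
    fun W => by
    obtain ⟨g, hg, v, hv, hc, hW⟩ := W.2
    exact ⟨g, hg, v, hv, hW, (hfix g W v hv hW).mpr hc⟩
  have hcentral : ∀ g ∈ Z, ∀ W : X, g • W = W := fun g hg W => by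
    obtain ⟨-, -, v, hv, hW, -⟩ := hline W
    obtain ⟨c, hc⟩ := exists_smul_of_commute ρ (ρ g) fun h => by
      rw [← map_mul, ← map_mul, Subgroup.mem_center_iff.mp hg h]
    exact (hfix g W v hv hW).mpr ⟨c, by rw [hc]; rfl⟩
  have htwo : ∀ g ∉ Z, Fintype.card (MulAction.fixedBy X g) = 2 := fun g hg => by
    obtain ⟨u, w, hu, hw, hne, hcu, hcw, hall⟩ := two_lines ρ hinj hg
    let P : X := ⟨ℂ ∙ u, g, hg, u, hu, hcu, rfl⟩
    let Q : X := ⟨ℂ ∙ w, g, hg, w, hw, hcw, rfl⟩
    have hset : MulAction.fixedBy X g = {P, Q} := by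
      ext W
      simp only [MulAction.mem_fixedBy, Set.mem_insert_iff, Set.mem_singleton_iff]
      constructor
      · intro h
        obtain ⟨-, -, v, hv, hW, -⟩ := hline W
        rcases hall v hv ((hfix g W v hv hW).mp h) with h' | h'
        · exact Or.inl (Subtype.ext (hW.trans h'))
        · exact Or.inr (Subtype.ext (hW.trans h'))
      · rintro (rfl | rfl)
        · exact (hfix g P u hu rfl).mpr hcu
        · exact (hfix g Q w hw rfl).mpr hcw
    rw [← Nat.card_eq_fintype_card, hset, Nat.card_coe_set_eq, Set.ncard_pair]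
    exact fun h => hne (congrArg Subtype.val h)
  -- count
  have hburn := MulAction.sum_card_fixedBy_eq_card_orbits_mul_card_group G X
  rw [← Finset.sum_filter_add_sum_filter_not Finset.univ (fun g : G => g ∈ Z),
    Finset.sum_congr rfl (g := fun _ => Fintype.card X) fun g hg => by
      rw [← Nat.card_eq_fintype_card, ← Nat.card_eq_fintype_card, Nat.card_coe_set_eq,
        show MulAction.fixedBy X g = Set.univ from Set.eq_univ_of_forall fun W =>
          hcentral g (Finset.mem_filter.mp hg).2 W, Set.ncard_univ],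
    Finset.sum_congr rfl (s₁ := Finset.univ.filter fun g : G => ¬ g ∈ Z) (g := fun _ => 2) fun g hg =>
      htwo g (Finset.mem_filter.mp hg).2,
    Finset.sum_const, Finset.sum_const, smul_eq_mul, smul_eq_mul] at hburn
  have hzc : (Finset.univ.filter fun g : G => g ∈ Z).card = Nat.card Z := by
    rw [← Fintype.card_subtype, Nat.card_eq_fintype_card]
  have hnz : (Finset.univ.filter fun g : G => ¬ g ∈ Z).card = (Z.index - 1) * Nat.card Z := by
    have h3 := Finset.card_filter_add_card_filter_not (s := (Finset.univ : Finset G)) (fun g => g ∈ Z)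
    rw [Finset.card_univ, hzc, ← Nat.card_eq_fintype_card, ← Z.index_mul_card] at h3
    rw [Nat.sub_mul, one_mul]
    omega
  rw [hzc, hnz, ← Nat.card_eq_fintype_card (α := G), ← Z.index_mul_card] at hburn
  let Ω := MulAction.orbitRel.Quotient G X
  have hX : Fintype.card X = ∑ ω : Ω, (MulAction.stabilizer G ω.out).index := by
    rw [← Nat.card_eq_fintype_card,
      Nat.card_congr (MulAction.selfEquivSigmaOrbitsQuotientStabilizer G X), Nat.card_sigma]
    rfl
  have hN2 : 2 ≤ Z.index := by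
    obtain ⟨g, hg⟩ := hnab
    have h1 : Z.index ≠ 1 := fun h => hg (Subgroup.index_eq_one.mp h ▸ Subgroup.mem_top g)
    have h0 : Z.index ≠ 0 := Subgroup.index_ne_zero_of_finite
    omega
  have hstab : ∀ ω : Ω, Z ≤ MulAction.stabilizer G ω.out := fun ω g hg =>
    MulAction.mem_stabilizer_iff.mpr (hcentral g hg _)
  refine orbit_numbers (ι := Ω) Z.index (fun ω => (MulAction.stabilizer G ω.out).index)
    (fun ω => Z.relIndex (MulAction.stabilizer G ω.out)) hN2
    (fun ω => by rw [mul_comm]; exact Subgroup.relIndex_mul_index (hstab ω)) (fun ω => ?_) (fun ω => ?_) ?_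
  · obtain ⟨g, hg, v, hv, hW, hfx⟩ := hline ω.out
    have h0 : Z.relIndex (MulAction.stabilizer G ω.out) ≠ 0 :=
      Subgroup.index_ne_zero_of_finite (H := Z.subgroupOf _)
    have h1 : Z.relIndex (MulAction.stabilizer G ω.out) ≠ 1 := fun h =>
      hg (Subgroup.relIndex_eq_one.mp h (MulAction.mem_stabilizer_iff.mpr hfx))
    omega
  · obtain ⟨-, -, v, hv, hW, -⟩ := hline ω.out
    set H := MulAction.stabilizer G ω.out
    have hH : ∀ h, h ∈ H ↔ ρ h v ∈ ℂ ∙ v := fun h => by
      rw [MulAction.mem_stabilizer_iff, hfix h _ v hv hW, Submodule.mem_span_singleton]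
      exact exists_congr fun c => eq_comm
    have hne1 : H.index ≠ 1 := fun h => by
      obtain ⟨g, hg⟩ := not_invariant ρ hv
      exact hg ((hH g).mp (Subgroup.index_eq_one.mp h ▸ Subgroup.mem_top g))
    have hne2 : H.index ≠ 2 := fun h => by
      obtain ⟨θ, hθ, he⟩ := induced_of_pair ρ hinj hv hH h
      exact hprim H (fun htop => hne1 (by rw [htop, Subgroup.index_top])) θ hθ he
    have hne0 : H.index ≠ 0 := Subgroup.index_ne_zero_of_finite
    show 3 ≤ H.index
    omega
  · refine Nat.eq_of_mul_eq_mul_right (Nat.card_pos (α := Z)) ?_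
    rw [← hX, mul_assoc (Fintype.card Ω)]
    rw [← hburn]
    ring

end

end Cfsg.Agent.Lib.CharClifford
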