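import Mathlib.Algebra.BigOperators.Group.Finset.Basic
import Mathlib.Data.Fintype.Card
import Mathlib.Tactic

/-! Grids of signed triples with the intersection pattern of `aᵢ + bⱼ + cᵢⱼ`. -/

set_option autoImplicit false

namespace Cfsg.Agent.Lib.CharClifford.TripleGrid

open Finset

variable {ι : Type*}

/-- Change of sign. -/
def op (u : ι × Bool) : ι × Bool := (u.1, !u.2)

@[simp] theorem op_op (u : ι × Bool) : op (op u) = u := by simp [op]

theorem op_ne (u : ι × Bool) : op u ≠ u := fun h => by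
  have := congrArg Prod.snd h
  simp [op] at this

theorem fst_eq {u v : ι × Bool} (h : u.1 = v.1) : u = v ∨ op u = v := by
  obtain ⟨a, b⟩ := u; obtain ⟨a', b'⟩ := v
  obtain rfl : a = a' := h
  cases b <;> cases b' <;> simp [op]

variable [DecidableEq ι]

/-- Two triples in one line. -/
structure Meet (S T : Finset (ι × Bool)) : Prop where
  one : (S ∩ T).card = 1
  noOpp : ∀ u ∈ S, op u ∉ T

/-- Two triples in different lines. -/
def Skew (S T : Finset (ι × Bool)) : Prop :=
  (S ∩ T).card = (S.filter fun u => op u ∈ T).card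

theorem Meet.symm {S T : Finset (ι × Bool)} (h : Meet S T) : Meet T S :=
  ⟨by rw [inter_comm]; exact h.one, fun u hu hu' => h.noOpp _ hu' (by rwa [op_op])⟩

theorem Meet.exists_mem {S T : Finset (ι × Bool)} (h : Meet S T) : ∃ u, u ∈ S ∧ u ∈ T := by
  obtain ⟨u, hu⟩ := card_eq_one.mp h.one
  have : u ∈ S ∩ T := hu ▸ mem_singleton_self u
  exact ⟨u, (mem_inter.mp this).1, (mem_inter.mp this).2⟩

theorem Meet.eq {S T : Finset (ι × Bool)} (h : Meet S T) {u v : ι × Bool} (h1 : u ∈ S)
    (h2 : u ∈ T) (h3 : v ∈ S) (h4 : v ∈ T) : u = v :=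
  card_le_one.mp h.one.le u (mem_inter.mpr ⟨h1, h2⟩) v (mem_inter.mpr ⟨h3, h4⟩)

/-- The signed multiplicity of `u` in `T`. -/
def coef (T : Finset (ι × Bool)) (u : ι × Bool) : ℤ :=
  (if u ∈ T then 1 else 0) - (if op u ∈ T then 1 else 0)

theorem sum_coef (S T : Finset (ι × Bool)) :
    ∑ u ∈ S, coef T u = ((S ∩ T).card : ℤ) - ((S.filter fun u => op u ∈ T).card : ℤ) := by
  simp only [coef, sum_sub_distrib, sum_boole, filter_mem_eq_inter]

theorem Meet.sum_coef_eq {S T : Finset (ι × Bool)} (h : Meet S T) : ∑ u ∈ S, coef T u = 1 := by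
  rw [sum_coef, h.one, filter_eq_empty_iff.mpr fun u hu => h.noOpp u hu]; rfl

theorem Skew.sum_coef_eq {S T : Finset (ι × Bool)} (h : Skew S T) : ∑ u ∈ S, coef T u = 0 := by
  rw [sum_coef, h, sub_self]

/-- The three possible coefficients. -/
def tri : List ℤ := [-1, 0, 1]

def norm1 (v : List ℤ) : ℕ := (v.map Int.natAbs).sum

def prods (u v : List ℤ) : List ℤ := List.zipWith (· * ·) u v

/-- Coefficient vectors compatible with being in one line. -/
def compat (u v : List ℤ) : Bool :=
  !((prods u v).contains (-1)) && ((prods u v).sum == 1 ||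
    ((prods u v).sum == 0 && decide (norm1 u < 3) && decide (norm1 v < 3)))

/-- Admissible coefficient vectors of the `k`th triple of the second row. -/
def cands (k : ℕ) : List (List ℤ) :=
  (tri.flatMap fun x => tri.flatMap fun a => tri.flatMap fun b => tri.flatMap fun c =>
    let za := (if k = 0 then 1 else 0) - x - a
    let zb := (if k = 1 then 1 else 0) - x - b
    let zc := (if k = 2 then 1 else 0) - x - c
    if a + b + c = (if k = 3 then 1 else 0) ∧ za ∈ tri ∧ zb ∈ tri ∧ zc ∈ tri ∧
      norm1 [x, a, b, c, za, zb, zc] ≤ 3 then [[x, a, b, c, za, zb, zc]] else [])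

theorem no_candidates : ∀ a ∈ cands 0, ∀ b ∈ cands 1, compat a b = true → ∀ c ∈ cands 2,
    compat a c = true → compat b c = true → ∀ d ∈ cands 3, compat a d = true → compat b d = true →
    compat c d = true → False := by
  decide +kernel

theorem coef_mem_tri (T : Finset (ι × Bool)) (u : ι × Bool) : coef T u ∈ tri := by
  unfold coef tri; split_ifs <;> simp

/-- The inner product on seven points. -/
theorem compat_coef {T T' : Finset (ι × Bool)} (h : Meet T T') (h3 : T.card = 3) (h3' : T'.card = 3)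
    (hs : ∀ u ∈ T, op u ∉ T) (hs' : ∀ u ∈ T', op u ∉ T')
    (f : Fin 7 → ι × Bool) (hf : Function.Injective f) (hfo : ∀ i j, op (f i) ≠ f j) :
    compat (List.ofFn fun i => coef T (f i)) (List.ofFn fun i => coef T' (f i)) = true := by
  set g : Fin 7 ⊕ Fin 7 → ι × Bool := Sum.elim f fun i => op (f i) with hg
  have ginj : Function.Injective g := by
    rintro (i | i) (j | j) e <;> simp only [hg, Sum.elim_inl, Sum.elim_inr] at e
    · rw [hf e]
    · exact absurd e.symm (hfo j i)
    · exact absurd e (hfo i j)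
    · exact congrArg Sum.inr (hf (by simpa using congrArg op e))
  have hprods : prods (List.ofFn fun i => coef T (f i)) (List.ofFn fun i => coef T' (f i)) =
      List.ofFn fun i => coef T (f i) * coef T' (f i) := by
    simp [prods, List.ofFn_succ]
  have hmul : ∀ u, coef T u * coef T' u =
      (if u ∈ T ∩ T' then 1 else 0) + (if op u ∈ T ∩ T' then 1 else 0) := by
    intro u
    have a1 := h.noOpp u
    have a2 := h.noOpp (op u)
    rw [op_op] at a2
    have b1 := hs u
    have b2 := hs' u
    simp only [coef, mem_inter]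
    by_cases u ∈ T <;> by_cases op u ∈ T <;> by_cases u ∈ T' <;> by_cases op u ∈ T' <;> simp_all
  have hnorm : ∀ X : Finset (ι × Bool), (∀ u ∈ X, op u ∉ X) →
      norm1 (List.ofFn fun i => coef X (f i)) = (univ.filter fun k => g k ∈ X).card := by
    intro X hX
    rw [norm1, List.map_ofFn, List.sum_ofFn, card_filter, Fintype.sum_sum_type, ← sum_add_distrib]
    refine sum_congr rfl fun i _ => ?_
    simp only [Function.comp_apply, coef, hg, Sum.elim_inl, Sum.elim_inr]
    by_cases ha : f i ∈ X
    · simp [ha, hX _ ha]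
    · by_cases hb : op (f i) ∈ X <;> simp [ha, hb]
  have hsum : (List.ofFn fun i => coef T (f i) * coef T' (f i)).sum =
      ((univ.filter fun k => g k ∈ T ∩ T').card : ℤ) := by
    rw [List.sum_ofFn, card_filter, Nat.cast_sum, Fintype.sum_sum_type, ← sum_add_distrib]
    refine sum_congr rfl fun i _ => ?_
    rw [hmul]
    simp only [hg, Sum.elim_inl, Sum.elim_inr, Nat.cast_ite, Nat.cast_one, Nat.cast_zero]
  have hcard : (univ.filter fun k => g k ∈ T ∩ T').card ≤ 1 := by
    rw [← h.one]
    exact card_le_card_of_injOn g (fun k hk => (mem_filter.mp hk).2) ginj.injOn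
  simp only [compat, hprods, hsum, Bool.and_eq_true, Bool.or_eq_true, Bool.not_eq_true',
    decide_eq_true_eq, beq_iff_eq, List.contains_eq_mem, decide_eq_false_iff_not, List.mem_ofFn]
  constructor
  · rintro ⟨i, hi⟩
    rw [hmul] at hi
    split_ifs at hi <;> omega
  · rcases Nat.le_one_iff_eq_zero_or_eq_one.mp hcard with e | e
    · right
      obtain ⟨w, hw, hw'⟩ := h.exists_mem
      have out : ∀ k, g k ≠ w := fun k hk => by
        have := Finset.card_eq_zero.mp e
        exact (filter_eq_empty_iff.mp this (mem_univ k)) (by rw [hk]; exact mem_inter.mpr ⟨hw, hw'⟩)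
      have hlt : ∀ X : Finset (ι × Bool), w ∈ X → X.card = 3 →
          (univ.filter fun k => g k ∈ X).card < 3 := by
        intro X hX hc
        have hle := card_le_card_of_injOn (s := univ.filter fun k => g k ∈ X) (t := X.erase w) g
          (fun k hk => mem_erase.mpr ⟨out k, (mem_filter.mp hk).2⟩) ginj.injOn
        rw [card_erase_of_mem hX, hc] at hle
        omega
      refine ⟨⟨by exact_mod_cast e, ?_⟩, ?_⟩
      · rw [hnorm T hs]; exact hlt T hw h3
      · rw [hnorm T' hs']; exact hlt T' hw' h3'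
    · left; exact_mod_cast e

theorem norm_coef_le {T : Finset (ι × Bool)} (h3 : T.card = 3) (hs : ∀ u ∈ T, op u ∉ T)
    (f : Fin 7 → ι × Bool) (hf : Function.Injective f) (hfo : ∀ i j, op (f i) ≠ f j) :
    norm1 (List.ofFn fun i => coef T (f i)) ≤ 3 := by
  rw [norm1, List.map_ofFn, List.sum_ofFn, ← h3]
  have e : ∀ i, (Int.natAbs ∘ fun i => coef T (f i)) i =
      (if f i ∈ T then 1 else 0) + (if op (f i) ∈ T then 1 else 0) := by
    intro i
    simp only [Function.comp_apply, coef]
    by_cases ha : f i ∈ T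
    · simp [ha, hs _ ha]
    · by_cases hb : op (f i) ∈ T <;> simp [ha, hb]
  rw [sum_congr rfl fun i _ => e i, sum_add_distrib, ← card_filter, ← card_filter]
  rw [← card_image_of_injective (univ.filter fun i => f i ∈ T) hf,
    ← card_image_of_injective (univ.filter fun i => op (f i) ∈ T)
      (f := fun i => op (f i)) (fun i j e => hf (by simpa using congrArg op e))]
  rw [← card_union_of_disjoint]
  · refine card_le_card fun x hx => ?_
    rw [mem_union, mem_image, mem_image] at hx
    rcases hx with ⟨i, hi, rfl⟩ | ⟨i, hi, rfl⟩ <;> exact (mem_filter.mp hi).2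
  · rw [disjoint_left]
    intro x hx hx'
    rw [mem_image] at hx hx'
    obtain ⟨i, -, rfl⟩ := hx
    obtain ⟨j, -, hj⟩ := hx'
    exact hfo j i hj

/-- The case of a point common to three of the triples. -/
theorem false_of_triple (S T : Fin 4 → Finset (ι × Bool)) (hS3 : ∀ i, (S i).card = 3)
    (hT3 : ∀ i, (T i).card = 3) (hSs : ∀ i, ∀ u ∈ S i, op u ∉ S i) (hTs : ∀ i, ∀ u ∈ T i, op u ∉ T i)
    (hS : ∀ i j, i ≠ j → Meet (S i) (S j)) (hT : ∀ i j, i ≠ j → Meet (T i) (T j))
    (hST : ∀ i, Meet (S i) (T i)) (hskew : ∀ i j, i ≠ j → Skew (S i) (T j))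
    (x : ι × Bool) (hx : ∀ a : Fin 3, x ∈ S a.castSucc) (hx3 : x ∉ S 3) : False := by
  have hne : ∀ a : Fin 3, a.castSucc ≠ (3 : Fin 4) := fun a => by
    intro h; have := congrArg Fin.val h; simp at this; omega
  choose y hya hy3 using fun a : Fin 3 => (hS _ _ (hne a)).exists_mem
  have hyx : ∀ a, y a ≠ x := fun a h => hx3 (h ▸ hy3 a)
  have hne2 : ∀ a b : Fin 3, a ≠ b → a.castSucc ≠ b.castSucc := fun a b h e =>
    h (Fin.castSucc_injective _ e)
  have hyinj : Function.Injective y := by
    intro a b e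
    by_contra hab
    exact hyx a ((hS _ _ (hne2 a b hab)).eq (hya a) (e ▸ hya b) (hx a) (hx b))
  have hz : ∀ a : Fin 3, ∃ z, S a.castSucc = {x, y a, z} ∧ z ≠ x ∧ z ≠ y a := by
    intro a
    have hc : (((S a.castSucc).erase x).erase (y a)).card = 1 := by
      rw [card_erase_of_mem (mem_erase.mpr ⟨hyx a, hya a⟩), card_erase_of_mem (hx a), hS3]
    obtain ⟨z, hz⟩ := card_eq_one.mp hc
    have hzm : z ∈ ((S a.castSucc).erase x).erase (y a) := hz ▸ mem_singleton_self z
    rw [mem_erase, mem_erase] at hzm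
    refine ⟨z, (eq_of_subset_of_card_le ?_ ?_).symm, hzm.2.1, hzm.1⟩
    · simp [insert_subset_iff, hx a, hya a, hzm.2.2]
    · rw [hS3, card_eq_three.mpr ⟨x, y a, z, (hyx a).symm, hzm.2.1.symm, hzm.1.symm, rfl⟩]
  choose z hzS hzx hzy using hz
  have hS3' : S 3 = univ.image y := by
    refine (eq_of_subset_of_card_le ?_ ?_).symm
    · intro w hw; obtain ⟨a, -, rfl⟩ := mem_image.mp hw; exact hy3 a
    · rw [hS3, card_image_of_injective _ hyinj, card_univ, Fintype.card_fin]
  have hzmem : ∀ a, z a ∈ S a.castSucc := fun a => by rw [hzS a]; simp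
  have hzy' : ∀ a b, z a ≠ y b := by
    intro a b e
    exact hzy a ((hS _ _ (hne a)).eq (hzmem a) (e ▸ hy3 b) (hya a) (hy3 a))
  have hzinj : Function.Injective z := by
    intro a b e
    by_contra hab
    exact hzx a ((hS _ _ (hne2 a b hab)).eq (hzmem a) (e ▸ hzmem b) (hx a) (hx b))
  let f : Fin 7 → ι × Bool := ![x, y 0, y 1, y 2, z 0, z 1, z 2]
  have hfinj : Function.Injective f := by
    have e0 : ∀ a b : Fin 3, a ≠ b → y a ≠ y b ∧ z a ≠ z b := fun a b h =>
      ⟨fun e => h (hyinj e), fun e => h (hzinj e)⟩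
    have := hyx; have := hzx; have := hzy'
    intro i j e
    fin_cases i <;> fin_cases j <;> simp [f] at e ⊢ <;>
      first
      | exact absurd e (hyx _)
      | exact absurd e.symm (hyx _)
      | exact absurd e (hzx _)
      | exact absurd e.symm (hzx _)
      | exact absurd e (hzy' _ _)
      | exact absurd e.symm (hzy' _ _)
      | exact absurd (hyinj e) (by decide)
      | exact absurd (hzinj e) (by decide)
  have hfU : ∀ i, ∃ l, f i ∈ S l := by
    intro i
    fin_cases i
    · exact ⟨_, hx 0⟩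
    · exact ⟨_, hy3 0⟩
    · exact ⟨_, hy3 1⟩
    · exact ⟨_, hy3 2⟩
    · exact ⟨_, hzmem 0⟩
    · exact ⟨_, hzmem 1⟩
    · exact ⟨_, hzmem 2⟩
  have hfo : ∀ i j, op (f i) ≠ f j := by
    intro i j e
    obtain ⟨l, hl⟩ := hfU i
    obtain ⟨l', hl'⟩ := hfU j
    rw [← e] at hl'
    rcases eq_or_ne l l' with rfl | h
    · exact hSs l _ hl hl'
    · exact (hS l l' h).noOpp _ hl hl'
  let v : Fin 4 → List ℤ := fun k => List.ofFn fun i => coef (T k) (f i)
  have hmem : ∀ k : Fin 4, v k ∈ cands k.val := by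
    intro k
    have hrow : ∀ a : Fin 3, coef (T k) x + coef (T k) (y a) + coef (T k) (z a) =
        if k.val = a.val then 1 else 0 := by
      intro a
      have hsum : ∑ u ∈ S a.castSucc, coef (T k) u = if k.val = a.val then 1 else 0 := by
        split_ifs with h
        · rw [show k = a.castSucc from Fin.ext h]; exact (hST _).sum_coef_eq
        · exact (hskew _ _ fun e => h (congrArg Fin.val e).symm).sum_coef_eq
      rw [hzS a, sum_insert (by simp [(hyx a).symm, (hzx a).symm]),
        sum_pair (hzy a).symm, ← add_assoc] at hsum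
      exact hsum
    have hy : coef (T k) (y 0) + coef (T k) (y 1) + coef (T k) (y 2) =
        if k.val = 3 then 1 else 0 := by
      have hsum : ∑ u ∈ S 3, coef (T k) u = if k.val = 3 then 1 else 0 := by
        split_ifs with h
        · rw [show k = 3 from Fin.ext h]; exact (hST _).sum_coef_eq
        · exact (hskew _ _ fun e => h (congrArg Fin.val e).symm).sum_coef_eq
      rw [hS3', sum_image hyinj.injOn, Fin.sum_univ_three] at hsum
      exact hsum
    have h0 := hrow 0; have h1 := hrow 1; have h2 := hrow 2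
    have hv : v k = [coef (T k) x, coef (T k) (y 0), coef (T k) (y 1), coef (T k) (y 2),
        coef (T k) (z 0), coef (T k) (z 1), coef (T k) (z 2)] := by
      simp [v, f, List.ofFn_succ]
    have hn := norm_coef_le (hT3 k) (hTs k) f hfinj hfo
    rw [show (List.ofFn fun i => coef (T k) (f i)) = v k from rfl, hv] at hn
    rw [hv]
    simp only [cands, List.mem_flatMap]
    refine ⟨_, coef_mem_tri (T k) x, _, coef_mem_tri (T k) (y 0), _, coef_mem_tri (T k) (y 1), _,
      coef_mem_tri (T k) (y 2), ?_⟩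
    have e0 : (if k.val = 0 then (1 : ℤ) else 0) - coef (T k) x - coef (T k) (y 0) =
        coef (T k) (z 0) := by simp only [Fin.val_zero] at h0; omega
    have e1 : (if k.val = 1 then (1 : ℤ) else 0) - coef (T k) x - coef (T k) (y 1) =
        coef (T k) (z 1) := by simp only [Fin.val_one] at h1; omega
    have e2 : (if k.val = 2 then (1 : ℤ) else 0) - coef (T k) x - coef (T k) (y 2) =
        coef (T k) (z 2) := by simp only [Fin.val_two] at h2; omega
    rw [e0, e1, e2, if_pos ⟨hy, coef_mem_tri _ _, coef_mem_tri _ _, coef_mem_tri _ _, hn⟩]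
    exact List.mem_singleton_self _
  have hc : ∀ k l : Fin 4, k ≠ l → compat (v k) (v l) = true := fun k l h =>
    compat_coef (hT k l h) (hT3 k) (hT3 l) (hTs k) (hTs l) f hfinj hfo
  exact no_candidates _ (hmem 0) _ (hmem 1) (hc _ _ (by decide)) _ (hmem 2) (hc _ _ (by decide))
    (hc _ _ (by decide)) _ (hmem 3) (hc _ _ (by decide)) (hc _ _ (by decide)) (hc _ _ (by decide))

/-- Four triples of a row with a second row have a common point. -/
theorem exists_common_four (S T : Fin 4 → Finset (ι × Bool)) (hS3 : ∀ i, (S i).card = 3)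
    (hT3 : ∀ i, (T i).card = 3) (hSs : ∀ i, ∀ u ∈ S i, op u ∉ S i) (hTs : ∀ i, ∀ u ∈ T i, op u ∉ T i)
    (hS : ∀ i j, i ≠ j → Meet (S i) (S j)) (hT : ∀ i j, i ≠ j → Meet (T i) (T j))
    (hST : ∀ i, Meet (S i) (T i)) (hskew : ∀ i j, i ≠ j → Skew (S i) (T j)) :
    ∃ x, ∀ i, x ∈ S i := by
  by_contra hno
  push Not at hno
  by_cases htr : ∃ x d, ∀ i, i ≠ d → x ∈ S i
  · obtain ⟨x, d, hxd⟩ := htr
    have hd : x ∉ S d := fun h => by
      obtain ⟨i, hi⟩ := hno x
      rcases eq_or_ne i d with rfl | h'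
      · exact hi h
      · exact hi (hxd i h')
    set σ : Equiv.Perm (Fin 4) := Equiv.swap d 3 with hσ
    refine false_of_triple (S ∘ σ) (T ∘ σ) (fun i => hS3 _) (fun i => hT3 _) (fun i => hSs _)
      (fun i => hTs _) (fun i j h => hS _ _ (σ.injective.ne h)) (fun i j h => hT _ _ (σ.injective.ne h))
      (fun i => hST _) (fun i j h => hskew _ _ (σ.injective.ne h)) x (fun a => hxd _ ?_) ?_
    · intro e
      have : a.castSucc = (3 : Fin 4) := σ.injective (e.trans (Equiv.swap_apply_right d 3).symm)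
      have := congrArg Fin.val this
      simp at this; omega
    · show x ∉ S (σ 3)
      rwa [hσ, Equiv.swap_apply_right]
  · push Not at htr
    set U := univ.biUnion S with hU
    have hmult : ∀ u ∈ U, (univ.filter fun l => u ∈ S l).card = 2 := by
      intro u hu
      obtain ⟨a, -, hua⟩ := mem_biUnion.mp hu
      have hle : (univ.filter fun l => u ∈ S l).card ≤ 2 := by
        by_contra h
        push Not at h
        have hc := card_compl (univ.filter fun l => u ∈ S l)
        rw [Fintype.card_fin] at hc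
        have : (univ.filter fun l => u ∈ S l)ᶜ.card ≤ 1 := by omega
        obtain ⟨d, hd⟩ : ∃ d, ∀ i ∈ (univ.filter fun l => u ∈ S l)ᶜ, i = d := by
          rcases (univ.filter fun l => u ∈ S l)ᶜ.eq_empty_or_nonempty with e | ⟨d, hd⟩
          · exact ⟨0, by simp [e]⟩
          · exact ⟨d, fun i hi => card_le_one.mp this i hi d hd⟩
        obtain ⟨i, hi, hiu⟩ := htr u d
        exact hi (hd i (by simp [hiu]))
      refine le_antisymm hle ?_
      choose p hpa hpb using fun b : {b : Fin 4 // b ≠ a} => (hS a b.1 b.2.symm).exists_mem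
      have hpinj : Function.Injective p := by
        intro b b' e
        by_contra hbb
        have hbb' : b.1 ≠ b'.1 := fun h => hbb (Subtype.ext h)
        have h3 : ({a, b.1, b'.1} : Finset (Fin 4)) ⊆ univ.filter fun l => p b ∈ S l := by
          simp [insert_subset_iff, hpa b, hpb b]
          exact e ▸ hpb b'
        have hc := card_le_card h3
        rw [card_eq_three.mpr ⟨a, b.1, b'.1, b.2.symm, b'.2.symm, hbb', rfl⟩] at hc
        have hcc := card_compl (univ.filter fun l => p b ∈ S l)
        rw [Fintype.card_fin] at hcc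
        have hle1 : (univ.filter fun l => p b ∈ S l)ᶜ.card ≤ 1 := by omega
        obtain ⟨i, hi⟩ := hno (p b)
        obtain ⟨j, hj, hjp⟩ := htr (p b) i
        exact hj (card_le_one.mp hle1 j (by simp [hjp]) i (by simp [hi]))
      have himg : univ.image p = S a := by
        refine eq_of_subset_of_card_le ?_ ?_
        · intro w hw; obtain ⟨b, -, rfl⟩ := mem_image.mp hw; exact hpa b
        · rw [hS3, card_image_of_injective _ hpinj, card_univ]
          simp
      rw [← himg, mem_image] at hua
      obtain ⟨b, -, rfl⟩ := hua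
      have h2 : ({a, b.1} : Finset (Fin 4)) ⊆ univ.filter fun l => p b ∈ S l := by
        simp [insert_subset_iff, hpa b, hpb b]
      have := card_le_card h2
      rwa [card_pair b.2.symm] at this
    have hone : ∑ l, ∑ u ∈ S l, coef (T 0) u = 1 := by
      rw [Fintype.sum_eq_single 0 fun l hl => (hskew l 0 hl).sum_coef_eq, (hST 0).sum_coef_eq]
    have htwo : ∑ l, ∑ u ∈ S l, coef (T 0) u = 2 * ∑ u ∈ U, coef (T 0) u := by
      rw [mul_sum, sum_comm' (t' := U) (s' := fun u => univ.filter fun l => u ∈ S l)]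
      · refine sum_congr rfl fun u hu => ?_
        rw [sum_const, hmult u hu, nsmul_eq_mul]; rfl
      · intro l u
        simp only [mem_univ, true_and, mem_filter, hU, mem_biUnion]
        exact ⟨fun h => ⟨h, l, h⟩, fun h => h.1⟩
    omega

variable {R C : Type*} [Fintype R] [Fintype C]

/-- A row of a grid has a common point. -/
theorem exists_common_row (S : R → C → Finset (ι × Bool)) (h3 : ∀ i j, (S i j).card = 3)
    (hs : ∀ i j, ∀ u ∈ S i j, op u ∉ S i j)
    (hrow : ∀ i j j', j ≠ j' → Meet (S i j) (S i j'))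
    (hcol : ∀ i i' j, i ≠ i' → Meet (S i j) (S i' j))
    (hskew : ∀ i i' j j', i ≠ i' → j ≠ j' → Skew (S i j) (S i' j'))
    (hR : 2 ≤ Fintype.card R) (hC : Fintype.card C = 2 ∨ 4 ≤ Fintype.card C) (i : R) :
    ∃ x, ∀ j, x ∈ S i j := by
  classical
  rcases hC with h | h
  · obtain ⟨j, j', hjj, hu⟩ := card_eq_two.mp ((card_univ (α := C)).trans h)
    obtain ⟨x, hx, hx'⟩ := (hrow i j j' hjj).exists_mem
    refine ⟨x, fun l => ?_⟩
    have hl : l ∈ ({j, j'} : Finset C) := hu ▸ mem_univ l
    rcases mem_insert.mp hl with rfl | hl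
    · exact hx
    · rw [mem_singleton.mp hl]; exact hx'
  · obtain ⟨i', hi'⟩ := Fintype.exists_ne_of_one_lt_card (show 1 < Fintype.card R by omega) i
    have four : ∀ e : Fin 4 ↪ C, ∃ x, ∀ k, x ∈ S i (e k) := fun e =>
      exists_common_four (fun k => S i (e k)) (fun k => S i' (e k)) (fun k => h3 _ _)
        (fun k => h3 _ _) (fun k => hs _ _) (fun k => hs _ _)
        (fun a b hab => hrow _ _ _ (e.injective.ne hab)) (fun a b hab => hrow _ _ _ (e.injective.ne hab))
        (fun k => hcol _ _ _ hi'.symm) (fun a b hab => hskew _ _ _ _ hi'.symm (e.injective.ne hab))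
    obtain ⟨e⟩ : Nonempty (Fin 4 ↪ C) :=
      Function.Embedding.nonempty_of_card_le (by simpa using h)
    obtain ⟨x, hx⟩ := four e
    refine ⟨x, fun j => ?_⟩
    by_contra hj
    have hne : ∀ k, e k ≠ j := fun k h => hj (h ▸ hx k)
    choose p hp hp' using fun k : Fin 4 => (hrow i (e k) j (hne k)).exists_mem
    have hpinj : Function.Injective p := by
      intro a b hab
      by_contra hne'
      refine hj ?_
      rw [(hrow i (e a) (e b) (e.injective.ne hne')).eq (hx a) (hx b) (hp a) (hab ▸ hp b)]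
      exact hp' a
    have hle := card_le_card (show univ.image p ⊆ S i j from fun w hw => by
      obtain ⟨k, -, rfl⟩ := mem_image.mp hw; exact hp' k)
    rw [card_image_of_injective _ hpinj, h3, card_univ, Fintype.card_fin] at hle
    omega

/-- No point is common to a whole row and a whole column. -/
theorem not_row_and_col {R C : Type*} [Fintype R] [Fintype C] (S : R → C → Finset (ι × Bool))
    (h3 : ∀ i j, (S i j).card = 3) (hs' : ∀ i j, ∀ u ∈ S i j, op u ∉ S i j)
    (hrow : ∀ i j j', j ≠ j' → Meet (S i j) (S i j'))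
    (hskew : ∀ i i' j j', i ≠ i' → j ≠ j' → Skew (S i j) (S i' j'))
    (hR : 2 ≤ Fintype.card R) (hC : 4 ≤ Fintype.card C) (i₀ : R) (j₀ : C) (x : ι × Bool)
    (hxr : ∀ j, x ∈ S i₀ j) (hxc : ∀ i, x ∈ S i j₀) : False := by
  classical
  obtain ⟨i', hi'⟩ := Fintype.exists_ne_of_one_lt_card (show 1 < Fintype.card R by omega) i₀
  have hex : ∀ l : {l : C // l ≠ j₀}, ∃ u, u ∈ S i' j₀ ∧ op u ∈ S i₀ l := by
    intro l
    have h := hskew i' i₀ j₀ l.1 hi' l.2.symm
    have hpos : 0 < ((S i' j₀).filter fun u => op u ∈ S i₀ l).card :=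
      h ▸ card_pos.mpr ⟨x, mem_inter.mpr ⟨hxc i', hxr l⟩⟩
    obtain ⟨u, hu⟩ := card_pos.mp hpos
    exact ⟨u, (mem_filter.mp hu).1, (mem_filter.mp hu).2⟩
  choose u hu hu' using hex
  have hux : ∀ l, u l ≠ x := by
    intro l h
    obtain ⟨l', hl'⟩ := Fintype.exists_ne_of_one_lt_card (show 1 < Fintype.card C by omega) l.1
    exact (hrow i₀ l' l.1 hl').noOpp x (hxr l') (h ▸ hu' l)
  have hinj : Function.Injective u := by
    intro l l' h
    by_contra hne
    have hne' : l.1 ≠ l'.1 := fun e => hne (Subtype.ext e)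
    have h4 : op (u l) = x :=
      (hrow i₀ l l' hne').eq (hu' l) (h ▸ hu' l') (hxr l) (hxr l')
    exact hs' i' j₀ (u l) (hu l) (h4 ▸ hxc i')
  have hle := card_le_card (show univ.image u ⊆ (S i' j₀).erase x from fun w hw => by
    obtain ⟨l, -, rfl⟩ := mem_image.mp hw; exact mem_erase.mpr ⟨hux l, hu l⟩)
  rw [card_image_of_injective _ hinj, card_erase_of_mem (hxc i'), h3, card_univ] at hle
  simp at hle
  omega

/-- The structure of a grid of signed triples. -/
theorem exists_grid (S : R → C → Finset (ι × Bool)) (h3 : ∀ i j, (S i j).card = 3)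
    (hs : ∀ i j, ∀ u ∈ S i j, op u ∉ S i j)
    (hrow : ∀ i j j', j ≠ j' → Meet (S i j) (S i j'))
    (hcol : ∀ i i' j, i ≠ i' → Meet (S i j) (S i' j))
    (hskew : ∀ i i' j j', i ≠ i' → j ≠ j' → Skew (S i j) (S i' j'))
    (hR : Fintype.card R = 2 ∨ 4 ≤ Fintype.card R) (hC : Fintype.card C = 2 ∨ 4 ≤ Fintype.card C)
    (hbig : 4 ≤ Fintype.card R ∨ 4 ≤ Fintype.card C) :
    ∃ (a : R → ι × Bool) (b : C → ι × Bool) (c : R → C → ι × Bool),
      (∀ i j, S i j = {a i, b j, c i j}) ∧
      Function.Injective (fun k : R ⊕ C ⊕ (R × C) =>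
        (Sum.elim a (Sum.elim b (fun p => c p.1 p.2)) k).1) := by
  classical
  have hR2 : 2 ≤ Fintype.card R := by omega
  have hC2 : 2 ≤ Fintype.card C := by omega
  choose a ha using exists_common_row S h3 hs hrow hcol hskew hR2 hC
  choose b hb using exists_common_row (fun j i => S i j) (fun j i => h3 i j) (fun j i => hs i j)
    (fun j i i' => hcol i i' j) (fun j j' i => hrow i j j')
    (fun j j' i i' hj hi => hskew i i' j j' hi hj) hC2 hR
  have hab : ∀ i j, a i ≠ b j := by
    intro i₀ j₀ e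
    rcases hbig with h | h
    · exact not_row_and_col (fun j i => S i j) (fun j i => h3 i j) (fun j i => hs i j) (fun j i i' => hcol i i' j)
        (fun j j' i i' hj hi => hskew i i' j j' hi hj) hC2 h j₀ i₀ (b j₀) (fun i => hb j₀ i)
        (fun j => (e ▸ ha i₀ j : b j₀ ∈ S i₀ j))
    · have hh : ∀ i, a i₀ ∈ S i j₀ := fun i => by rw [e]; exact hb j₀ i
      exact not_row_and_col S h3 hs hrow hskew hR2 h i₀ j₀ (a i₀) (fun j => ha i₀ j) hh
  have hc : ∀ i j, ∃ c, S i j = {a i, b j, c} ∧ c ≠ a i ∧ c ≠ b j := by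
    intro i j
    have hc : (((S i j).erase (a i)).erase (b j)).card = 1 := by
      rw [card_erase_of_mem (mem_erase.mpr ⟨(hab i j).symm, hb j i⟩), card_erase_of_mem (ha i j), h3]
    obtain ⟨z, hz⟩ := card_eq_one.mp hc
    have hzm : z ∈ ((S i j).erase (a i)).erase (b j) := hz ▸ mem_singleton_self z
    rw [mem_erase, mem_erase] at hzm
    refine ⟨z, (eq_of_subset_of_card_le ?_ ?_).symm, hzm.2.1, hzm.1⟩
    · simp [insert_subset_iff, ha i j, hb j i, hzm.2.2]
    · rw [h3, card_eq_three.mpr ⟨a i, b j, z, hab i j, hzm.2.1.symm, hzm.1.symm, rfl⟩]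
  choose c hcS hca hcb using hc
  refine ⟨a, b, c, hcS, ?_⟩
  have hcm : ∀ i j, c i j ∈ S i j := fun i j => by rw [hcS]; simp
  have same : ∀ {T T' : Finset (ι × Bool)} {u v : ι × Bool}, Meet T T' → u ∈ T → v ∈ T' → u.1 = v.1 →
      u = v := by
    intro T T' u v hm hu hv e
    rcases fst_eq e with h | h
    · exact h
    · exact absurd (h ▸ hv) (hm.noOpp u hu)
  have same' : ∀ i j {u v : ι × Bool}, u ∈ S i j → v ∈ S i j → u.1 = v.1 → u = v := by
    intro i j u v hu hv e
    rcases fst_eq e with h | h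
    · exact h
    · exact absurd (h ▸ hv) (hs i j u hu)
  have jC : C := (Fintype.card_pos_iff.mp (by omega : 0 < Fintype.card C)).some
  have iR : R := (Fintype.card_pos_iff.mp (by omega : 0 < Fintype.card R)).some
  have haa : ∀ i i', (a i).1 = (a i').1 → i = i' := by
    intro i i' e
    by_contra h
    have e' := same (hcol i i' jC h) (ha i jC) (ha i' jC) e
    exact hab i jC ((hcol i i' jC h).eq (ha i jC) (e' ▸ ha i' jC) (hb jC i) (hb jC i'))
  have hbb : ∀ j j', (b j).1 = (b j').1 → j = j' := by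
    intro j j' e
    by_contra h
    have e' := same (hrow iR j j' h) (hb j iR) (hb j' iR) e
    exact hab iR j ((hrow iR j j' h).eq (ha iR j) (ha iR j') (hb j iR) (e' ▸ hb j' iR))
  have habf : ∀ i j, (a i).1 ≠ (b j).1 := fun i j e => hab i j (same' i j (ha i j) (hb j i) e)
  have hac : ∀ i i' j, (a i).1 ≠ (c i' j).1 := by
    intro i i' j e
    rcases eq_or_ne i i' with rfl | h
    · exact hca i j (same' i j (ha i j) (hcm i j) e).symm
    · have e' := same (hcol i i' j h) (ha i j) (hcm i' j) e
      exact hab i j ((hcol i i' j h).eq (ha i j) (e' ▸ hcm i' j) (hb j i) (hb j i'))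
  have hbc : ∀ j i j', (b j).1 ≠ (c i j').1 := by
    intro j i j' e
    rcases eq_or_ne j j' with rfl | h
    · exact hcb i j (same' i j (hb j i) (hcm i j) e).symm
    · have e' := same (hrow i j j' h) (hb j i) (hcm i j') e
      exact hab i j ((hrow i j j' h).eq (ha i j) (ha i j') (hb j i) (e' ▸ hcm i j'))
  have hcc : ∀ i j i' j', (c i j).1 = (c i' j').1 → i = i' ∧ j = j' := by
    intro i j i' j' e
    by_cases hi : i = i'
    · subst hi
      refine ⟨rfl, ?_⟩
      by_contra h
      have e' := same (hrow i j j' h) (hcm i j) (hcm i j') e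
      exact hca i j ((hrow i j j' h).eq (hcm i j) (e' ▸ hcm i j') (ha i j) (ha i j'))
    by_cases hj : j = j'
    · subst hj
      exfalso
      have e' := same (hcol i i' j hi) (hcm i j) (hcm i' j) e
      exact hcb i j ((hcol i i' j hi).eq (hcm i j) (e' ▸ hcm i' j) (hb j i) (hb j i'))
    exfalso
    have h := hskew i i' j j' hi hj
    have na : ∀ v ∈ S i' j', (a i).1 ≠ v.1 := by
      intro v hv
      rw [hcS] at hv
      simp only [mem_insert, mem_singleton] at hv
      rcases hv with rfl | rfl | rfl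
      exacts [fun e => hi (haa _ _ e), habf _ _, hac _ _ _]
    have nb : ∀ v ∈ S i' j', (b j).1 ≠ v.1 := by
      intro v hv
      rw [hcS] at hv
      simp only [mem_insert, mem_singleton] at hv
      rcases hv with rfl | rfl | rfl
      exacts [fun e => habf _ _ e.symm, fun e => hj (hbb _ _ e), hbc _ _ _]
    have cmem : ∀ v ∈ S i j, ∀ w ∈ S i' j', v.1 = w.1 → v = c i j := by
      intro v hv w hw e
      rw [hcS] at hv
      simp only [mem_insert, mem_singleton] at hv
      rcases hv with rfl | rfl | rfl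
      exacts [absurd e (na w hw), absurd e (nb w hw), rfl]
    rcases fst_eq e with e' | e'
    · have hin : c i j ∈ S i j ∩ S i' j' := mem_inter.mpr ⟨hcm i j, e' ▸ hcm i' j'⟩
      have hpos : 0 < ((S i j).filter fun u => op u ∈ S i' j').card := h ▸ card_pos.mpr ⟨_, hin⟩
      obtain ⟨u, hu⟩ := card_pos.mp hpos
      rw [mem_filter] at hu
      have hu' := cmem u hu.1 _ hu.2 rfl
      subst hu'
      exact hs i' j' _ (mem_inter.mp hin).2 hu.2
    · have hin : c i j ∈ (S i j).filter fun u => op u ∈ S i' j' :=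
        mem_filter.mpr ⟨hcm i j, e' ▸ hcm i' j'⟩
      have hpos : 0 < (S i j ∩ S i' j').card := h.symm ▸ card_pos.mpr ⟨_, hin⟩
      obtain ⟨u, hu⟩ := card_pos.mp hpos
      rw [mem_inter] at hu
      have hu' := cmem u hu.1 _ hu.2 rfl
      subst hu'
      exact hs i' j' _ hu.2 (mem_filter.mp hin).2
  rintro (i | j | ⟨i, j⟩) (i' | j' | ⟨i', j'⟩) e <;> simp only [Sum.elim_inl, Sum.elim_inr] at e
  · rw [haa _ _ e]
  · exact absurd e (habf _ _)
  · exact absurd e (hac _ _ _)
  · exact absurd e.symm (habf _ _)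
  · rw [hbb _ _ e]
  · exact absurd e (hbc _ _ _)
  · exact absurd e.symm (hac _ _ _)
  · exact absurd e.symm (hbc _ _ _)
  · obtain ⟨rfl, rfl⟩ := hcc _ _ _ _ e; rfl

end Cfsg.Agent.Lib.CharClifford.TripleGrid
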